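import Cfsg.Agent.Golay.Mathieu

/-! Certificates for the Schur multiplier of `M₂₄`. -/

set_option autoImplicit false
set_option maxHeartbeats 4000000

namespace Cfsg.Agent.FGS4.M24Schur

open Cfsg.Agent.Golay

/-- A permutation code. -/
def c0 : ℕ := 803048695643603448587736494297336227
/-- A permutation code. -/
def c1 : ℕ := 433031549772317917520720298171179653
/-- A permutation code. -/
def c2 : ℕ := 66742679794693968394983210226362095
/-- A permutation code. -/
def c3 : ℕ := 541727491990562716668341842581178060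
/-- A permutation code. -/
def c4 : ℕ := 69703569470289984906583314228622065
/-- A permutation code. -/
def c5 : ℕ := 984818243325042462882151804256527407
/-- A permutation code. -/
def c6 : ℕ := 984818236553928064044870571589680169
/-- A permutation code. -/
def c7 : ℕ := 858949167820900061109406819748980047
/-- A permutation code. -/
def c8 : ℕ := 440576644768657249243212318906057346
/-- A permutation code. -/
def c9 : ℕ := 70961320914963099358309625824913135
/-- A permutation code. -/
def a0 : ℕ := 984818225758488488355990491334508578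
/-- A permutation code. -/
def a1 : ℕ := 980599603407022916402920467664013344
/-- A permutation code. -/
def a2 : ℕ := 440576644768657249243212318906057346
/-- A permutation code. -/
def b0 : ℕ := 440576655550791557582773725174480521
/-- A permutation code. -/
def b1 : ℕ := 943757398648219070555158979864494754
/-- A permutation code. -/
def b2 : ℕ := 566393936531423450598539046910184035
/-- A permutation code. -/
def h0 : ℕ := 667346526138500444988868550949715409
/-- A permutation code. -/
def h1 : ℕ := 381799302610961929806062599430852883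
/-- A permutation code. -/
def h2 : ℕ := 581629140079097544878287409820324193
/-- A permutation code. -/
def h3 : ℕ := 887993058535795774325809168298559907
/-- A permutation code. -/
def h4 : ℕ := 897035735246521925945017234798909764
/-- A permutation code. -/
def h5 : ℕ := 858461354957888928314053593592604066
/-- A permutation code. -/
def h6 : ℕ := 984712790419589047701087167407301952
/-- A permutation code. -/
def h7 : ℕ := 275238304440639581569669291005619429
/-- A permutation code. -/
def h8 : ℕ := 587020285847048397621289043422334166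
/-- A permutation code. -/
def h9 : ℕ := 805680315312541576596393631030449576
/-- A permutation code. -/
def h10 : ℕ := 717186266556979333878505781361087780
/-- A permutation code. -/
def h11 : ℕ := 975570082136802958406628742552377997
/-- A permutation code. -/
def h12 : ℕ := 801399975007507924496347368258808244
/-- A permutation code. -/
def h13 : ℕ := 263110510324632800107972613036754188
/-- A permutation code. -/
def h14 : ℕ := 179925304115881524997603536783411776
/-- A permutation code. -/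
def h15 : ℕ := 301620206581807249256229224319208737
/-- A permutation code. -/
def h16 : ℕ := 483665800761136510782432640289673490
/-- A permutation code. -/
def h17 : ℕ := 135461753509448850111427912060766345
/-- A permutation code. -/
def h18 : ℕ := 544555058918612529047344081633555079
/-- A permutation code. -/
def h19 : ℕ := 467309834445059968671158387458291189
/-- A permutation code. -/
def h20 : ℕ := 890706267620785191226139250241113809
/-- A permutation code. -/
def h21 : ℕ := 10756635686544355453328662701136970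
/-- A permutation code. -/
def h22 : ℕ := 729655386667596531088497765208113828
/-- A permutation code. -/
def h23 : ℕ := 55360167579759998599250798325607717
/-- A permutation code. -/
def h24 : ℕ := 430335857706566754936641463218740966
/-- A permutation code. -/
def h25 : ℕ := 277838134102252651450140821484030307
/-- A permutation code. -/
def h26 : ℕ := 190216047237164277276935045020802509
/-- A permutation code. -/
def h27 : ℕ := 665231485218293150301933922009271764
/-- A permutation code. -/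
def h28 : ℕ := 505611569624767113401091836383116866
/-- A permutation code. -/
def h29 : ℕ := 55399640456813878837517495076002535
/-- A permutation code. -/
def h30 : ℕ := 588393154696842613715624595149149686
/-- A permutation code. -/
def h31 : ℕ := 278336261792307436806361608858451168
/-- A permutation code. -/
def h32 : ℕ := 801442501943404221741343053892522704
/-- A permutation code. -/
def h33 : ℕ := 147428003834644827440490859792248046
/-- A permutation code. -/
def h34 : ℕ := 646565882060216317055500640896393515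
/-- A permutation code. -/
def h35 : ℕ := 689578103960561436423659537861789836
/-- A permutation code. -/
def h36 : ℕ := 320117792277266172582354301399456980
/-- A permutation code. -/
def h37 : ℕ := 90870874319271013573711050738666801
/-- A permutation code. -/
def h38 : ℕ := 380906529732489504530703282337779180
/-- A permutation code. -/
def h39 : ℕ := 801412123821453148171942280181329456
/-- A permutation code. -/
def h40 : ℕ := 26376540999186350515579923895471169
/-- A permutation code. -/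
def k8x0 : ℕ := 442712574249006700463147295049127656
/-- A permutation code. -/
def k8x1 : ℕ := 404514928781752794864416597388989771
/-- A permutation code. -/
def k8x2 : ℕ := 602600792551033498508219702963800416
/-- A permutation code. -/
def k8x3 : ℕ := 852890657175622649466466240137536075
/-- A permutation code. -/
def k8x4 : ℕ := 376585252951079979001791547719209997
/-- A permutation code. -/
def k8x5 : ℕ := 897107061692038228797579233175677495
/-- A permutation code. -/
def k8x6 : ℕ := 640723883443983654699767701136807598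
/-- A permutation code. -/
def k0x0 : ℕ := 437939202412017266985989942448667272
/-- A permutation code. -/
def k0x1 : ℕ := 797329628268102144950314907114546929
/-- A permutation code. -/
def k0x2 : ℕ := 177201648344513286740018482571709617
/-- A permutation code. -/
def k0x3 : ℕ := 67930444706310769478738547800642286
/-- A permutation code. -/
def k0x4 : ℕ := 102670290469101665451954873849616942
/-- A permutation code. -/
def k0x5 : ℕ := 554493443496017443829130568835025975
/-- A permutation code. -/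
def k0x6 : ℕ := 710070035461517112561412797081105706
/-- A permutation code. -/
def u3 : ℕ := 923518521156537761769804171707458980
/-- A permutation code. -/
def v3 : ℕ := 726408732665761369745548535931348082
/-- A permutation code. -/
def w3 : ℕ := 442219401491240583911844809106721153
/-- A permutation code. -/
def gu : ℕ := 222548234897015726727739311824970764
/-- A permutation code. -/
def gv : ℕ := 649911075277664094787132902090344643

/-- The word relations. -/
def rels : List (List ℕ × List ℕ) :=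
  [([c0, c0], []),
    ([c0, c1, c0], [c1, c4, c5]),
    ([c0, c2, c0], [c5, c6, c7, c9]),
    ([c0, c3, c0], [c3, c8]),
    ([c0, c4, c0], [c4]),
    ([c0, c5, c0], [c5]),
    ([c0, c6, c0], [c6]),
    ([c0, c7, c0], [c7, c8]),
    ([c0, c8, c0], [c8]),
    ([c0, c9, c0], [c2, c5, c6, c7, c8]),
    ([c1, c1], []),
    ([c1, c2, c1], [c2]),
    ([c1, c3, c1], [c3, c5, c6, c7]),
    ([c1, c4, c1], [c4]),
    ([c1, c5, c1], [c5]),
    ([c1, c6, c1], [c6]),
    ([c1, c7, c1], [c7]),
    ([c1, c8, c1], [c5, c6, c8]),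
    ([c1, c9, c1], [c6, c9]),
    ([c2, c2], []),
    ([c2, c3, c2], [c3, c5, c6, c7]),
    ([c2, c4, c2], [c4, c6]),
    ([c2, c5, c2], [c5]),
    ([c2, c6, c2], [c6]),
    ([c2, c7, c2], [c7]),
    ([c2, c8, c2], [c8]),
    ([c2, c9, c2], [c9]),
    ([c3, c3], []),
    ([c3, c4, c3], [c4, c5, c6, c8]),
    ([c3, c5, c3], [c6]),
    ([c3, c6, c3], [c5]),
    ([c3, c7, c3], [c7]),
    ([c3, c8, c3], [c8]),
    ([c3, c9, c3], [c5, c6, c7, c8, c9]),
    ([c4, c4], []),
    ([c4, c5, c4], [c5]),
    ([c4, c6, c4], [c6]),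
    ([c4, c7, c4], [c5, c6, c7]),
    ([c4, c8, c4], [c8]),
    ([c4, c9, c4], [c5, c9]),
    ([c5, c5], []),
    ([c5, c6, c5], [c6]),
    ([c5, c7, c5], [c7]),
    ([c5, c8, c5], [c8]),
    ([c5, c9, c5], [c9]),
    ([c6, c6], []),
    ([c6, c7, c6], [c7]),
    ([c6, c8, c6], [c8]),
    ([c6, c9, c6], [c9]),
    ([c7, c7], []),
    ([c7, c8, c7], [c8]),
    ([c7, c9, c7], [c9]),
    ([c8, c8], []),
    ([c8, c9, c8], [c9]),
    ([c9, c9], []),
    ([a0, a0], []),
    ([b0, b0], []),
    ([u3, u3, u3], []),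
    ([v3, v3, v3], []),
    ([w3, w3, w3], []),
    ([u3, v3], [w3, v3, u3]),
    ([u3, w3], [w3, u3]),
    ([v3, w3], [w3, v3]),
    ([u3, gu, u3], [gu]),
    ([gu, w3], [w3, gu]),
    ([v3, gv, v3], [gv]),
    ([gv, w3], [w3, gv])]

/-- The conjugacy certificates: representative, word, conjugating element. -/
def certs : List (ℕ × List ℕ × ℕ) :=
  [(b0, [c0], h0),
    (b0, [c1], h1),
    (b0, [c2], h2),
    (b0, [c3], h3),
    (b0, [c4], h4),
    (a0, [c5], h5),
    (a0, [c6], h6),
    (b0, [c7], h7),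
    (a0, [c8], h8),
    (a0, [c9], h9),
    (b0, [c0, c4], h10),
    (b0, [c0, c5], h11),
    (b0, [c0, c6], h12),
    (b0, [c0, c8], h13),
    (b0, [c1, c2], h14),
    (b0, [c1, c4], h15),
    (b0, [c1, c5], h16),
    (b0, [c1, c6], h17),
    (b0, [c1, c7], h18),
    (a0, [c2, c5], h19),
    (b0, [c2, c6], h20),
    (a0, [c2, c7], h21),
    (a0, [c2, c8], h22),
    (a0, [c2, c9], h23),
    (b0, [c3, c7], h24),
    (b0, [c3, c8], h25),
    (b0, [c4, c5], h26),
    (b0, [c4, c6], h27),
    (b0, [c4, c8], h28),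
    (a0, [c5, c6], h29),
    (a0, [c5, c7], h30),
    (b0, [c5, c8], h31),
    (a0, [c5, c9], h32),
    (a0, [c6, c7], h33),
    (b0, [c6, c8], h34),
    (a0, [c6, c9], h35),
    (b0, [c7, c8], h36),
    (a0, [c7, c9], h37),
    (b0, [c8, c9], h38),
    (a0, [c0, c3, c7], h39),
    (b0, [c1, c2, c3], h40),
    (a0, [a0], k8x0),
    (a0, [a1], k8x1),
    (a0, [a2], k8x2),
    (a0, [a0, a1], k8x3),
    (a0, [a0, a2], k8x4),
    (a0, [a1, a2], k8x5),
    (a0, [a0, a1, a2], k8x6),
    (b0, [b0], k0x0),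
    (b0, [b1], k0x1),
    (b0, [b2], k0x2),
    (b0, [b0, b1], k0x3),
    (b0, [b0, b2], k0x4),
    (b0, [b1, b2], k0x5),
    (b0, [b0, b1, b2], k0x6)]

/-- All codes in use. -/
def allCodes : List ℕ :=
  [c0, c1, c2, c3, c4, c5, c6, c7, c8, c9, a0, a1, a2, b0, b1, b2, h0, h1, h2, h3, h4, h5, h6, h7, h8, h9, h10, h11, h12, h13, h14, h15, h16, h17, h18, h19, h20, h21, h22, h23, h24, h25, h26, h27, h28, h29, h30, h31, h32, h33, h34, h35, h36, h37, h38, h39, h40, k8x0, k8x1, k8x2, k8x3, k8x4, k8x5, k8x6, k0x0, k0x1, k0x2, k0x3, k0x4, k0x5, k0x6, u3, v3, w3, gu, gv]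

/-- An ordering of the subsets of the generators by fingerprint. -/
def order : List ℕ :=
  [532, 628, 448, 262, 754, 294, 326, 658, 596, 690, 480, 722, 564, 358, 384, 416, 893, 797, 73, 987, 175, 923, 1019, 207, 861, 143, 9, 239, 829, 955, 105, 41, 912, 1008, 4, 194, 886, 226, 130, 790, 976, 822, 36, 854, 944, 162, 68, 100, 221, 189, 1001, 123, 783, 59, 91, 879, 253, 815, 937, 847, 157, 27, 969, 905, 473, 441, 717, 383, 555, 319, 351, 587, 505, 523, 653, 619, 409, 287, 749, 685, 48, 80, 932, 866, 214, 834, 802, 182, 112, 150, 900, 246, 16, 770, 996, 964, 633, 537, 365, 735, 395, 671, 767, 491, 601, 427, 301, 459, 569, 703, 333, 269, 436, 468, 608, 678, 338, 646, 742, 306, 500, 274, 576, 370, 404, 710, 544, 512, 848, 816, 196, 2, 950, 34, 66, 982, 784, 1014, 228, 918, 880, 98, 132, 164, 381, 285, 585, 475, 687, 411, 507, 719, 349, 655, 521, 751, 317, 443, 617, 553, 724, 692, 256, 454, 562, 486, 390, 594, 660, 626, 288, 530, 756, 422, 320, 352, 733, 701, 489, 635, 271, 571, 603, 367,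 765, 303, 425, 335, 669, 539, 457, 393, 985, 953, 205, 895, 43, 831, 863, 75, 1017, 11, 141, 107, 921, 799, 237, 173, 372, 276, 672, 614, 402, 582, 550, 498, 308, 466, 640, 434, 340, 518, 736, 704, 121, 25, 877, 223, 907, 159, 255, 1003, 89, 939, 813, 971, 57, 191, 845, 781, 240, 144, 868, 930, 22, 898, 994, 118, 176, 86, 836, 54, 208, 962, 804, 772, 72, 40, 892, 954, 206, 1018, 922, 174, 104, 238, 828, 142, 8, 986, 860, 796, 449, 417, 533, 359, 659, 327, 295, 755, 385, 723, 565, 691, 481, 263, 597, 629, 364, 268, 632, 702, 490, 766, 670, 394, 332, 458, 568, 426, 300, 734, 600, 536, 609, 513, 437, 711, 307, 743, 647, 339, 545, 371, 405, 275, 577, 679, 501, 469, 933, 965, 49, 771, 183, 803, 835, 215, 997, 247, 17, 151, 901, 867, 113, 81, 716, 684, 472, 286, 586, 350, 318, 554, 748, 618, 408, 522, 652, 382, 504, 440, 5, 101, 913, 163, 791, 131, 227, 887, 69, 855, 945, 823, 37, 195, 977, 1009, 1000, 904, 220, 26, 878, 90, 58, 782, 968, 846, 156, 814, 936, 122, 252, 188, 428, 460, 696,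 638, 298, 574, 606, 330, 396, 266, 760, 362, 492, 542, 664, 728, 961, 929, 21, 871, 147, 839, 807, 243, 897, 211, 53, 179, 993, 775, 85, 117, 136, 232, 956, 890, 14, 826, 858, 110, 168, 46, 1020, 78, 200, 794, 924, 988, 97, 1, 949, 199, 819, 231, 135, 851, 33, 883, 917, 787, 65, 167, 1013, 981, 421, 453, 561, 259, 695, 291, 323, 727, 485, 759, 529, 663, 389, 355, 625, 593, 808, 840, 28, 218, 942, 154, 250, 974, 776, 910, 92, 1006, 872, 186, 60, 124, 517, 613, 401, 675, 279, 643, 739, 375, 581, 343, 433, 311, 549, 707, 465, 497, 524, 620, 280, 478, 650, 414, 510, 746, 556, 682, 344, 714, 588, 446, 312, 376, 336, 304, 708, 514, 438, 546, 578, 470, 272, 502, 740, 406, 368, 610, 644, 676, 185, 217, 941, 31, 843, 95, 63, 811, 153, 875, 1005, 779, 249, 127, 909, 973, 212, 180, 768, 966, 50, 998, 902, 82, 148, 114, 800, 18, 244, 934, 832, 864, 793, 889, 13, 959, 235, 1023, 927, 139, 825, 203, 77, 171, 857, 991, 45, 109, 541, 637, 297, 699, 463, 763, 667, 431, 573, 495, 361, 399, 605, 731,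 265, 329, 884, 788, 160, 102, 914, 70, 38, 1010, 820, 978, 128, 946, 852, 6, 224, 192, 445, 477, 649, 283, 623, 347, 315, 527, 413, 591, 713, 559, 509, 379, 681, 745, 752, 656, 356, 418, 534, 386, 482, 630, 688, 598, 324, 566, 720, 450, 292, 260, 940, 972, 184, 126, 810, 62, 94, 842, 908, 778, 248, 874, 1004, 30, 152, 216, 709, 677, 337, 611, 471, 579, 547, 439, 645, 407, 369, 503, 741, 515, 273, 305, 648, 744, 444, 378, 526, 314, 346, 622, 680, 558, 508, 590, 712, 282, 412, 476, 357, 261, 753, 451, 631, 483, 387, 535, 293, 567, 721, 599, 325, 419, 689, 657, 161, 193, 885, 7, 1011, 39, 71, 915, 225, 947, 853, 979, 129, 103, 821, 789, 296, 328, 540, 730, 430, 666, 762, 462, 264, 398, 604, 494, 360, 698, 572, 636, 769, 865, 213, 935, 83, 903, 999, 51, 833, 19, 245, 115, 801, 967, 149, 181, 12, 108, 792, 990, 138, 926, 1022, 234, 44, 170, 856, 202, 76, 958, 824, 888, 584, 552, 380, 442, 718, 506, 410, 686, 616, 750, 316, 654, 520, 474, 348, 284, 197, 165, 849, 99, 983, 67, 35, 951, 133,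 919, 881, 1015, 229, 3, 785, 817, 876, 780, 120, 190, 1002, 254, 158, 906, 844, 970, 56, 938, 812, 222, 88, 24, 869, 773, 241, 963, 119, 995, 899, 23, 805, 55, 209, 87, 837, 931, 177, 145, 673, 705, 373, 519, 499, 551, 583, 403, 737, 435, 341, 467, 641, 615, 309, 277, 204, 172, 984, 798, 74, 862, 830, 42, 236, 106, 920, 10, 140, 894, 1016, 952, 257, 353, 725, 423, 595, 391, 487, 563, 321, 531, 757, 627, 289, 455, 661, 693, 488, 392, 732, 538, 366, 602, 570, 270, 456, 334, 668, 302, 424, 634, 764, 700, 20, 116, 960, 774, 242, 806, 838, 146, 84, 178, 992, 210, 52, 870, 896, 928, 697, 729, 429, 543, 331, 607, 575, 299, 665, 363, 493, 267, 761, 639, 397, 461, 400, 496, 516, 706, 374, 738, 642, 278, 464, 310, 548, 342, 432, 674, 580, 612, 281, 377, 525, 447, 747, 511, 415, 651, 313, 715, 589, 683, 345, 479, 557, 621, 29, 125, 809, 187, 975, 251, 155, 943, 61, 1007, 873, 911, 93, 219, 777, 841, 560, 592, 420, 354, 726, 322, 290, 694, 624, 662, 388, 758, 528, 258, 484, 452, 957, 989, 137,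 795, 111, 859, 827, 15, 925, 79, 201, 47, 1021, 891, 169, 233, 948, 980, 96, 166, 850, 134, 230, 818, 1012, 786, 64, 882, 916, 198, 32, 0]

/-- Image of an index under a word. -/
def evalW (ws : List ℕ) (i : ℕ) : ℕ := ws.foldr app i

/-- The word attached to a bit pattern. -/
def bitWord (n : ℕ) : List ℕ :=
  ((([c0, c1, c2, c3, c4, c5, c6, c7, c8, c9] : List ℕ).zipIdx).filter fun q => n.testBit q.2).map Prod.fst

/-- A fingerprint of a word. -/
def wordKey (ws : List ℕ) : ℕ := (List.range 24).foldr (fun i acc => evalW ws i + 32 * acc) 0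

/-- Strictly increasing, checked along the list. -/
def increasing : List ℕ → Bool
  | a :: b :: l => decide (a < b) && increasing (b :: l)
  | _ => true

theorem codes_ok : (allCodes.all isAut) = true := by decide +kernel

theorem rels_ok : (rels.all fun r => (List.range 24).all fun i => evalW r.1 i == evalW r.2 i) = true := by
  decide +kernel

theorem certs_ok : (certs.all fun r => (List.range 24).all fun i =>
    evalW [r.2.2, r.1] i == evalW (r.2.1 ++ [r.2.2]) i) = true := by
  decide +kernel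

theorem order_ok : order.length = 1024 ∧
    increasing (order.map fun n => wordKey (bitWord n)) = true := by
  decide +kernel

theorem w3_moves : app w3 0 ≠ 0 := by decide +kernel

theorem pairwise_of_increasing : ∀ {l : List ℕ}, increasing l = true → l.Pairwise (· < ·)
  | [], _ => List.Pairwise.nil
  | [a], _ => List.pairwise_singleton _ a
  | a :: b :: l, h => by
    simp only [increasing, Bool.and_eq_true, decide_eq_true_eq] at h
    have ih := pairwise_of_increasing (l := b :: l) h.2
    refine List.pairwise_cons.2 ⟨fun x hx => ?_, ih⟩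
    rcases List.mem_cons.1 hx with rfl | hx
    · exact h.1
    · exact h.1.trans ((List.pairwise_cons.1 ih).1 x hx)

theorem code_mem {c : ℕ} (h : c ∈ allCodes) : permOK c = true ∧ permOf c ∈ Cfsg.M24 := by
  have h' := List.all_eq_true.1 codes_ok c h
  exact ⟨permOK_of_isAut h', permOf_mem_M24 h'⟩

/-- The element of `M₂₄` of a listed code. -/
noncomputable def el (c : ℕ) (h : c ∈ allCodes) : Cfsg.M24 := ⟨permOf c, (code_mem h).2⟩

theorem idx_prod : ∀ {ws : List ℕ}, (∀ c ∈ ws, c ∈ allCodes) → ∀ p,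
    idx ((ws.map permOf).prod p) = evalW ws (idx p)
  | [], _, p => rfl
  | c :: ws, h, p => by
    rw [List.map_cons, List.prod_cons, Equiv.Perm.mul_apply, idx_permOf (code_mem (h c (by simp))).1,
      idx_prod (fun d hd => h d (by simp [hd]))]
    rfl

theorem prod_eq {a b : List ℕ} (ha : ∀ c ∈ a, c ∈ allCodes) (hb : ∀ c ∈ b, c ∈ allCodes)
    (h : ((List.range 24).all fun i => evalW a i == evalW b i) = true) :
    (a.map permOf).prod = (b.map permOf).prod := by
  ext1 p
  apply idx_injective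
  rw [idx_prod ha, idx_prod hb]
  exact beq_iff_eq.1 (List.all_eq_true.1 h _ (List.mem_range.2 (idx_lt p)))

theorem subCodes {ws : List ℕ} (h : (ws.all fun c => allCodes.contains c) = true) :
    ∀ c ∈ ws, c ∈ allCodes := fun c hc => by simpa using List.all_eq_true.1 h c hc

theorem mem_c0 : c0 ∈ allCodes := List.mem_of_getElem? (i := 0) rfl

theorem mem_c1 : c1 ∈ allCodes := List.mem_of_getElem? (i := 1) rfl

theorem mem_c2 : c2 ∈ allCodes := List.mem_of_getElem? (i := 2) rfl

theorem mem_c3 : c3 ∈ allCodes := List.mem_of_getElem? (i := 3) rfl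

theorem mem_c4 : c4 ∈ allCodes := List.mem_of_getElem? (i := 4) rfl

theorem mem_c5 : c5 ∈ allCodes := List.mem_of_getElem? (i := 5) rfl

theorem mem_c6 : c6 ∈ allCodes := List.mem_of_getElem? (i := 6) rfl

theorem mem_c7 : c7 ∈ allCodes := List.mem_of_getElem? (i := 7) rfl

theorem mem_c8 : c8 ∈ allCodes := List.mem_of_getElem? (i := 8) rfl

theorem mem_c9 : c9 ∈ allCodes := List.mem_of_getElem? (i := 9) rfl

theorem mem_a0 : a0 ∈ allCodes := List.mem_of_getElem? (i := 10) rfl

theorem mem_a1 : a1 ∈ allCodes := List.mem_of_getElem? (i := 11) rfl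

theorem mem_a2 : a2 ∈ allCodes := List.mem_of_getElem? (i := 12) rfl

theorem mem_b0 : b0 ∈ allCodes := List.mem_of_getElem? (i := 13) rfl

theorem mem_b1 : b1 ∈ allCodes := List.mem_of_getElem? (i := 14) rfl

theorem mem_b2 : b2 ∈ allCodes := List.mem_of_getElem? (i := 15) rfl

theorem mem_h0 : h0 ∈ allCodes := List.mem_of_getElem? (i := 16) rfl

theorem mem_h1 : h1 ∈ allCodes := List.mem_of_getElem? (i := 17) rfl

theorem mem_h2 : h2 ∈ allCodes := List.mem_of_getElem? (i := 18) rfl

theorem mem_h3 : h3 ∈ allCodes := List.mem_of_getElem? (i := 19) rfl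

theorem mem_h4 : h4 ∈ allCodes := List.mem_of_getElem? (i := 20) rfl

theorem mem_h5 : h5 ∈ allCodes := List.mem_of_getElem? (i := 21) rfl

theorem mem_h6 : h6 ∈ allCodes := List.mem_of_getElem? (i := 22) rfl

theorem mem_h7 : h7 ∈ allCodes := List.mem_of_getElem? (i := 23) rfl

theorem mem_h8 : h8 ∈ allCodes := List.mem_of_getElem? (i := 24) rfl

theorem mem_h9 : h9 ∈ allCodes := List.mem_of_getElem? (i := 25) rfl

theorem mem_h10 : h10 ∈ allCodes := List.mem_of_getElem? (i := 26) rfl

theorem mem_h11 : h11 ∈ allCodes := List.mem_of_getElem? (i := 27) rfl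

theorem mem_h12 : h12 ∈ allCodes := List.mem_of_getElem? (i := 28) rfl

theorem mem_h13 : h13 ∈ allCodes := List.mem_of_getElem? (i := 29) rfl

theorem mem_h14 : h14 ∈ allCodes := List.mem_of_getElem? (i := 30) rfl

theorem mem_h15 : h15 ∈ allCodes := List.mem_of_getElem? (i := 31) rfl

theorem mem_h16 : h16 ∈ allCodes := List.mem_of_getElem? (i := 32) rfl

theorem mem_h17 : h17 ∈ allCodes := List.mem_of_getElem? (i := 33) rfl

theorem mem_h18 : h18 ∈ allCodes := List.mem_of_getElem? (i := 34) rfl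

theorem mem_h19 : h19 ∈ allCodes := List.mem_of_getElem? (i := 35) rfl

theorem mem_h20 : h20 ∈ allCodes := List.mem_of_getElem? (i := 36) rfl

theorem mem_h21 : h21 ∈ allCodes := List.mem_of_getElem? (i := 37) rfl

theorem mem_h22 : h22 ∈ allCodes := List.mem_of_getElem? (i := 38) rfl

theorem mem_h23 : h23 ∈ allCodes := List.mem_of_getElem? (i := 39) rfl

theorem mem_h24 : h24 ∈ allCodes := List.mem_of_getElem? (i := 40) rfl

theorem mem_h25 : h25 ∈ allCodes := List.mem_of_getElem? (i := 41) rfl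

theorem mem_h26 : h26 ∈ allCodes := List.mem_of_getElem? (i := 42) rfl

theorem mem_h27 : h27 ∈ allCodes := List.mem_of_getElem? (i := 43) rfl

theorem mem_h28 : h28 ∈ allCodes := List.mem_of_getElem? (i := 44) rfl

theorem mem_h29 : h29 ∈ allCodes := List.mem_of_getElem? (i := 45) rfl

theorem mem_h30 : h30 ∈ allCodes := List.mem_of_getElem? (i := 46) rfl

theorem mem_h31 : h31 ∈ allCodes := List.mem_of_getElem? (i := 47) rfl

theorem mem_h32 : h32 ∈ allCodes := List.mem_of_getElem? (i := 48) rfl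

theorem mem_h33 : h33 ∈ allCodes := List.mem_of_getElem? (i := 49) rfl

theorem mem_h34 : h34 ∈ allCodes := List.mem_of_getElem? (i := 50) rfl

theorem mem_h35 : h35 ∈ allCodes := List.mem_of_getElem? (i := 51) rfl

theorem mem_h36 : h36 ∈ allCodes := List.mem_of_getElem? (i := 52) rfl

theorem mem_h37 : h37 ∈ allCodes := List.mem_of_getElem? (i := 53) rfl

theorem mem_h38 : h38 ∈ allCodes := List.mem_of_getElem? (i := 54) rfl

theorem mem_h39 : h39 ∈ allCodes := List.mem_of_getElem? (i := 55) rfl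

theorem mem_h40 : h40 ∈ allCodes := List.mem_of_getElem? (i := 56) rfl

theorem mem_k8x0 : k8x0 ∈ allCodes := List.mem_of_getElem? (i := 57) rfl

theorem mem_k8x1 : k8x1 ∈ allCodes := List.mem_of_getElem? (i := 58) rfl

theorem mem_k8x2 : k8x2 ∈ allCodes := List.mem_of_getElem? (i := 59) rfl

theorem mem_k8x3 : k8x3 ∈ allCodes := List.mem_of_getElem? (i := 60) rfl

theorem mem_k8x4 : k8x4 ∈ allCodes := List.mem_of_getElem? (i := 61) rfl

theorem mem_k8x5 : k8x5 ∈ allCodes := List.mem_of_getElem? (i := 62) rfl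

theorem mem_k8x6 : k8x6 ∈ allCodes := List.mem_of_getElem? (i := 63) rfl

theorem mem_k0x0 : k0x0 ∈ allCodes := List.mem_of_getElem? (i := 64) rfl

theorem mem_k0x1 : k0x1 ∈ allCodes := List.mem_of_getElem? (i := 65) rfl

theorem mem_k0x2 : k0x2 ∈ allCodes := List.mem_of_getElem? (i := 66) rfl

theorem mem_k0x3 : k0x3 ∈ allCodes := List.mem_of_getElem? (i := 67) rfl

theorem mem_k0x4 : k0x4 ∈ allCodes := List.mem_of_getElem? (i := 68) rfl

theorem mem_k0x5 : k0x5 ∈ allCodes := List.mem_of_getElem? (i := 69) rfl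

theorem mem_k0x6 : k0x6 ∈ allCodes := List.mem_of_getElem? (i := 70) rfl

theorem mem_u3 : u3 ∈ allCodes := List.mem_of_getElem? (i := 71) rfl

theorem mem_v3 : v3 ∈ allCodes := List.mem_of_getElem? (i := 72) rfl

theorem mem_w3 : w3 ∈ allCodes := List.mem_of_getElem? (i := 73) rfl

theorem mem_gu : gu ∈ allCodes := List.mem_of_getElem? (i := 74) rfl

theorem mem_gv : gv ∈ allCodes := List.mem_of_getElem? (i := 75) rfl

/-- A named element. -/
noncomputable def g_c0 : Cfsg.M24 := el c0 mem_c0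

/-- A named element. -/
noncomputable def g_c1 : Cfsg.M24 := el c1 mem_c1

/-- A named element. -/
noncomputable def g_c2 : Cfsg.M24 := el c2 mem_c2

/-- A named element. -/
noncomputable def g_c3 : Cfsg.M24 := el c3 mem_c3

/-- A named element. -/
noncomputable def g_c4 : Cfsg.M24 := el c4 mem_c4

/-- A named element. -/
noncomputable def g_c5 : Cfsg.M24 := el c5 mem_c5

/-- A named element. -/
noncomputable def g_c6 : Cfsg.M24 := el c6 mem_c6

/-- A named element. -/
noncomputable def g_c7 : Cfsg.M24 := el c7 mem_c7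

/-- A named element. -/
noncomputable def g_c8 : Cfsg.M24 := el c8 mem_c8

/-- A named element. -/
noncomputable def g_c9 : Cfsg.M24 := el c9 mem_c9

/-- A named element. -/
noncomputable def g_a0 : Cfsg.M24 := el a0 mem_a0

/-- A named element. -/
noncomputable def g_a1 : Cfsg.M24 := el a1 mem_a1

/-- A named element. -/
noncomputable def g_a2 : Cfsg.M24 := el a2 mem_a2

/-- A named element. -/
noncomputable def g_b0 : Cfsg.M24 := el b0 mem_b0

/-- A named element. -/
noncomputable def g_b1 : Cfsg.M24 := el b1 mem_b1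

/-- A named element. -/
noncomputable def g_b2 : Cfsg.M24 := el b2 mem_b2

/-- A named element. -/
noncomputable def g_u3 : Cfsg.M24 := el u3 mem_u3

/-- A named element. -/
noncomputable def g_v3 : Cfsg.M24 := el v3 mem_v3

/-- A named element. -/
noncomputable def g_w3 : Cfsg.M24 := el w3 mem_w3

/-- A named element. -/
noncomputable def g_gu : Cfsg.M24 := el gu mem_gu

/-- A named element. -/
noncomputable def g_gv : Cfsg.M24 := el gv mem_gv

theorem rel0 : g_c0 * g_c0 = 1 := Subtype.ext (by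
  have := prod_eq (a := [c0, c0]) (b := []) (subCodes (by decide +kernel)) (subCodes (by decide +kernel))
    (List.all_eq_true.1 rels_ok _ (List.mem_of_getElem? (i := 0) rfl))
  simpa [g_c0, el, mul_assoc] using this)

theorem rel1 : g_c0 * g_c1 * g_c0 = g_c1 * g_c4 * g_c5 := Subtype.ext (by
  have := prod_eq (a := [c0, c1, c0]) (b := [c1, c4, c5]) (subCodes (by decide +kernel)) (subCodes (by decide +kernel))
    (List.all_eq_true.1 rels_ok _ (List.mem_of_getElem? (i := 1) rfl))
  simpa [g_c0, g_c1, g_c4, g_c5, el, mul_assoc] using this)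

theorem rel2 : g_c0 * g_c2 * g_c0 = g_c5 * g_c6 * g_c7 * g_c9 := Subtype.ext (by
  have := prod_eq (a := [c0, c2, c0]) (b := [c5, c6, c7, c9]) (subCodes (by decide +kernel)) (subCodes (by decide +kernel))
    (List.all_eq_true.1 rels_ok _ (List.mem_of_getElem? (i := 2) rfl))
  simpa [g_c0, g_c2, g_c5, g_c6, g_c7, g_c9, el, mul_assoc] using this)

theorem rel3 : g_c0 * g_c3 * g_c0 = g_c3 * g_c8 := Subtype.ext (by
  have := prod_eq (a := [c0, c3, c0]) (b := [c3, c8]) (subCodes (by decide +kernel)) (subCodes (by decide +kernel))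
    (List.all_eq_true.1 rels_ok _ (List.mem_of_getElem? (i := 3) rfl))
  simpa [g_c0, g_c3, g_c8, el, mul_assoc] using this)

theorem rel4 : g_c0 * g_c4 * g_c0 = g_c4 := Subtype.ext (by
  have := prod_eq (a := [c0, c4, c0]) (b := [c4]) (subCodes (by decide +kernel)) (subCodes (by decide +kernel))
    (List.all_eq_true.1 rels_ok _ (List.mem_of_getElem? (i := 4) rfl))
  simpa [g_c0, g_c4, el, mul_assoc] using this)

theorem rel5 : g_c0 * g_c5 * g_c0 = g_c5 := Subtype.ext (by
  have := prod_eq (a := [c0, c5, c0]) (b := [c5]) (subCodes (by decide +kernel)) (subCodes (by decide +kernel))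
    (List.all_eq_true.1 rels_ok _ (List.mem_of_getElem? (i := 5) rfl))
  simpa [g_c0, g_c5, el, mul_assoc] using this)

theorem rel6 : g_c0 * g_c6 * g_c0 = g_c6 := Subtype.ext (by
  have := prod_eq (a := [c0, c6, c0]) (b := [c6]) (subCodes (by decide +kernel)) (subCodes (by decide +kernel))
    (List.all_eq_true.1 rels_ok _ (List.mem_of_getElem? (i := 6) rfl))
  simpa [g_c0, g_c6, el, mul_assoc] using this)

theorem rel7 : g_c0 * g_c7 * g_c0 = g_c7 * g_c8 := Subtype.ext (by
  have := prod_eq (a := [c0, c7, c0]) (b := [c7, c8]) (subCodes (by decide +kernel)) (subCodes (by decide +kernel))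
    (List.all_eq_true.1 rels_ok _ (List.mem_of_getElem? (i := 7) rfl))
  simpa [g_c0, g_c7, g_c8, el, mul_assoc] using this)

theorem rel8 : g_c0 * g_c8 * g_c0 = g_c8 := Subtype.ext (by
  have := prod_eq (a := [c0, c8, c0]) (b := [c8]) (subCodes (by decide +kernel)) (subCodes (by decide +kernel))
    (List.all_eq_true.1 rels_ok _ (List.mem_of_getElem? (i := 8) rfl))
  simpa [g_c0, g_c8, el, mul_assoc] using this)

theorem rel9 : g_c0 * g_c9 * g_c0 = g_c2 * g_c5 * g_c6 * g_c7 * g_c8 := Subtype.ext (by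
  have := prod_eq (a := [c0, c9, c0]) (b := [c2, c5, c6, c7, c8]) (subCodes (by decide +kernel)) (subCodes (by decide +kernel))
    (List.all_eq_true.1 rels_ok _ (List.mem_of_getElem? (i := 9) rfl))
  simpa [g_c0, g_c2, g_c5, g_c6, g_c7, g_c8, g_c9, el, mul_assoc] using this)

theorem rel10 : g_c1 * g_c1 = 1 := Subtype.ext (by
  have := prod_eq (a := [c1, c1]) (b := []) (subCodes (by decide +kernel)) (subCodes (by decide +kernel))
    (List.all_eq_true.1 rels_ok _ (List.mem_of_getElem? (i := 10) rfl))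
  simpa [g_c1, el, mul_assoc] using this)

theorem rel11 : g_c1 * g_c2 * g_c1 = g_c2 := Subtype.ext (by
  have := prod_eq (a := [c1, c2, c1]) (b := [c2]) (subCodes (by decide +kernel)) (subCodes (by decide +kernel))
    (List.all_eq_true.1 rels_ok _ (List.mem_of_getElem? (i := 11) rfl))
  simpa [g_c1, g_c2, el, mul_assoc] using this)

theorem rel12 : g_c1 * g_c3 * g_c1 = g_c3 * g_c5 * g_c6 * g_c7 := Subtype.ext (by
  have := prod_eq (a := [c1, c3, c1]) (b := [c3, c5, c6, c7]) (subCodes (by decide +kernel)) (subCodes (by decide +kernel))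
    (List.all_eq_true.1 rels_ok _ (List.mem_of_getElem? (i := 12) rfl))
  simpa [g_c1, g_c3, g_c5, g_c6, g_c7, el, mul_assoc] using this)

theorem rel13 : g_c1 * g_c4 * g_c1 = g_c4 := Subtype.ext (by
  have := prod_eq (a := [c1, c4, c1]) (b := [c4]) (subCodes (by decide +kernel)) (subCodes (by decide +kernel))
    (List.all_eq_true.1 rels_ok _ (List.mem_of_getElem? (i := 13) rfl))
  simpa [g_c1, g_c4, el, mul_assoc] using this)

theorem rel14 : g_c1 * g_c5 * g_c1 = g_c5 := Subtype.ext (by
  have := prod_eq (a := [c1, c5, c1]) (b := [c5]) (subCodes (by decide +kernel)) (subCodes (by decide +kernel))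
    (List.all_eq_true.1 rels_ok _ (List.mem_of_getElem? (i := 14) rfl))
  simpa [g_c1, g_c5, el, mul_assoc] using this)

theorem rel15 : g_c1 * g_c6 * g_c1 = g_c6 := Subtype.ext (by
  have := prod_eq (a := [c1, c6, c1]) (b := [c6]) (subCodes (by decide +kernel)) (subCodes (by decide +kernel))
    (List.all_eq_true.1 rels_ok _ (List.mem_of_getElem? (i := 15) rfl))
  simpa [g_c1, g_c6, el, mul_assoc] using this)

theorem rel16 : g_c1 * g_c7 * g_c1 = g_c7 := Subtype.ext (by
  have := prod_eq (a := [c1, c7, c1]) (b := [c7]) (subCodes (by decide +kernel)) (subCodes (by decide +kernel))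
    (List.all_eq_true.1 rels_ok _ (List.mem_of_getElem? (i := 16) rfl))
  simpa [g_c1, g_c7, el, mul_assoc] using this)

theorem rel17 : g_c1 * g_c8 * g_c1 = g_c5 * g_c6 * g_c8 := Subtype.ext (by
  have := prod_eq (a := [c1, c8, c1]) (b := [c5, c6, c8]) (subCodes (by decide +kernel)) (subCodes (by decide +kernel))
    (List.all_eq_true.1 rels_ok _ (List.mem_of_getElem? (i := 17) rfl))
  simpa [g_c1, g_c5, g_c6, g_c8, el, mul_assoc] using this)

theorem rel18 : g_c1 * g_c9 * g_c1 = g_c6 * g_c9 := Subtype.ext (by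
  have := prod_eq (a := [c1, c9, c1]) (b := [c6, c9]) (subCodes (by decide +kernel)) (subCodes (by decide +kernel))
    (List.all_eq_true.1 rels_ok _ (List.mem_of_getElem? (i := 18) rfl))
  simpa [g_c1, g_c6, g_c9, el, mul_assoc] using this)

theorem rel19 : g_c2 * g_c2 = 1 := Subtype.ext (by
  have := prod_eq (a := [c2, c2]) (b := []) (subCodes (by decide +kernel)) (subCodes (by decide +kernel))
    (List.all_eq_true.1 rels_ok _ (List.mem_of_getElem? (i := 19) rfl))
  simpa [g_c2, el, mul_assoc] using this)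

theorem rel20 : g_c2 * g_c3 * g_c2 = g_c3 * g_c5 * g_c6 * g_c7 := Subtype.ext (by
  have := prod_eq (a := [c2, c3, c2]) (b := [c3, c5, c6, c7]) (subCodes (by decide +kernel)) (subCodes (by decide +kernel))
    (List.all_eq_true.1 rels_ok _ (List.mem_of_getElem? (i := 20) rfl))
  simpa [g_c2, g_c3, g_c5, g_c6, g_c7, el, mul_assoc] using this)

theorem rel21 : g_c2 * g_c4 * g_c2 = g_c4 * g_c6 := Subtype.ext (by
  have := prod_eq (a := [c2, c4, c2]) (b := [c4, c6]) (subCodes (by decide +kernel)) (subCodes (by decide +kernel))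
    (List.all_eq_true.1 rels_ok _ (List.mem_of_getElem? (i := 21) rfl))
  simpa [g_c2, g_c4, g_c6, el, mul_assoc] using this)

theorem rel22 : g_c2 * g_c5 * g_c2 = g_c5 := Subtype.ext (by
  have := prod_eq (a := [c2, c5, c2]) (b := [c5]) (subCodes (by decide +kernel)) (subCodes (by decide +kernel))
    (List.all_eq_true.1 rels_ok _ (List.mem_of_getElem? (i := 22) rfl))
  simpa [g_c2, g_c5, el, mul_assoc] using this)

theorem rel23 : g_c2 * g_c6 * g_c2 = g_c6 := Subtype.ext (by
  have := prod_eq (a := [c2, c6, c2]) (b := [c6]) (subCodes (by decide +kernel)) (subCodes (by decide +kernel))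
    (List.all_eq_true.1 rels_ok _ (List.mem_of_getElem? (i := 23) rfl))
  simpa [g_c2, g_c6, el, mul_assoc] using this)

theorem rel24 : g_c2 * g_c7 * g_c2 = g_c7 := Subtype.ext (by
  have := prod_eq (a := [c2, c7, c2]) (b := [c7]) (subCodes (by decide +kernel)) (subCodes (by decide +kernel))
    (List.all_eq_true.1 rels_ok _ (List.mem_of_getElem? (i := 24) rfl))
  simpa [g_c2, g_c7, el, mul_assoc] using this)

theorem rel25 : g_c2 * g_c8 * g_c2 = g_c8 := Subtype.ext (by
  have := prod_eq (a := [c2, c8, c2]) (b := [c8]) (subCodes (by decide +kernel)) (subCodes (by decide +kernel))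
    (List.all_eq_true.1 rels_ok _ (List.mem_of_getElem? (i := 25) rfl))
  simpa [g_c2, g_c8, el, mul_assoc] using this)

theorem rel26 : g_c2 * g_c9 * g_c2 = g_c9 := Subtype.ext (by
  have := prod_eq (a := [c2, c9, c2]) (b := [c9]) (subCodes (by decide +kernel)) (subCodes (by decide +kernel))
    (List.all_eq_true.1 rels_ok _ (List.mem_of_getElem? (i := 26) rfl))
  simpa [g_c2, g_c9, el, mul_assoc] using this)

theorem rel27 : g_c3 * g_c3 = 1 := Subtype.ext (by
  have := prod_eq (a := [c3, c3]) (b := []) (subCodes (by decide +kernel)) (subCodes (by decide +kernel))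
    (List.all_eq_true.1 rels_ok _ (List.mem_of_getElem? (i := 27) rfl))
  simpa [g_c3, el, mul_assoc] using this)

theorem rel28 : g_c3 * g_c4 * g_c3 = g_c4 * g_c5 * g_c6 * g_c8 := Subtype.ext (by
  have := prod_eq (a := [c3, c4, c3]) (b := [c4, c5, c6, c8]) (subCodes (by decide +kernel)) (subCodes (by decide +kernel))
    (List.all_eq_true.1 rels_ok _ (List.mem_of_getElem? (i := 28) rfl))
  simpa [g_c3, g_c4, g_c5, g_c6, g_c8, el, mul_assoc] using this)

theorem rel29 : g_c3 * g_c5 * g_c3 = g_c6 := Subtype.ext (by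
  have := prod_eq (a := [c3, c5, c3]) (b := [c6]) (subCodes (by decide +kernel)) (subCodes (by decide +kernel))
    (List.all_eq_true.1 rels_ok _ (List.mem_of_getElem? (i := 29) rfl))
  simpa [g_c3, g_c5, g_c6, el, mul_assoc] using this)

theorem rel30 : g_c3 * g_c6 * g_c3 = g_c5 := Subtype.ext (by
  have := prod_eq (a := [c3, c6, c3]) (b := [c5]) (subCodes (by decide +kernel)) (subCodes (by decide +kernel))
    (List.all_eq_true.1 rels_ok _ (List.mem_of_getElem? (i := 30) rfl))
  simpa [g_c3, g_c5, g_c6, el, mul_assoc] using this)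

theorem rel31 : g_c3 * g_c7 * g_c3 = g_c7 := Subtype.ext (by
  have := prod_eq (a := [c3, c7, c3]) (b := [c7]) (subCodes (by decide +kernel)) (subCodes (by decide +kernel))
    (List.all_eq_true.1 rels_ok _ (List.mem_of_getElem? (i := 31) rfl))
  simpa [g_c3, g_c7, el, mul_assoc] using this)

theorem rel32 : g_c3 * g_c8 * g_c3 = g_c8 := Subtype.ext (by
  have := prod_eq (a := [c3, c8, c3]) (b := [c8]) (subCodes (by decide +kernel)) (subCodes (by decide +kernel))
    (List.all_eq_true.1 rels_ok _ (List.mem_of_getElem? (i := 32) rfl))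
  simpa [g_c3, g_c8, el, mul_assoc] using this)

theorem rel33 : g_c3 * g_c9 * g_c3 = g_c5 * g_c6 * g_c7 * g_c8 * g_c9 := Subtype.ext (by
  have := prod_eq (a := [c3, c9, c3]) (b := [c5, c6, c7, c8, c9]) (subCodes (by decide +kernel)) (subCodes (by decide +kernel))
    (List.all_eq_true.1 rels_ok _ (List.mem_of_getElem? (i := 33) rfl))
  simpa [g_c3, g_c5, g_c6, g_c7, g_c8, g_c9, el, mul_assoc] using this)

theorem rel34 : g_c4 * g_c4 = 1 := Subtype.ext (by
  have := prod_eq (a := [c4, c4]) (b := []) (subCodes (by decide +kernel)) (subCodes (by decide +kernel))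
    (List.all_eq_true.1 rels_ok _ (List.mem_of_getElem? (i := 34) rfl))
  simpa [g_c4, el, mul_assoc] using this)

theorem rel35 : g_c4 * g_c5 * g_c4 = g_c5 := Subtype.ext (by
  have := prod_eq (a := [c4, c5, c4]) (b := [c5]) (subCodes (by decide +kernel)) (subCodes (by decide +kernel))
    (List.all_eq_true.1 rels_ok _ (List.mem_of_getElem? (i := 35) rfl))
  simpa [g_c4, g_c5, el, mul_assoc] using this)

theorem rel36 : g_c4 * g_c6 * g_c4 = g_c6 := Subtype.ext (by
  have := prod_eq (a := [c4, c6, c4]) (b := [c6]) (subCodes (by decide +kernel)) (subCodes (by decide +kernel))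
    (List.all_eq_true.1 rels_ok _ (List.mem_of_getElem? (i := 36) rfl))
  simpa [g_c4, g_c6, el, mul_assoc] using this)

theorem rel37 : g_c4 * g_c7 * g_c4 = g_c5 * g_c6 * g_c7 := Subtype.ext (by
  have := prod_eq (a := [c4, c7, c4]) (b := [c5, c6, c7]) (subCodes (by decide +kernel)) (subCodes (by decide +kernel))
    (List.all_eq_true.1 rels_ok _ (List.mem_of_getElem? (i := 37) rfl))
  simpa [g_c4, g_c5, g_c6, g_c7, el, mul_assoc] using this)

theorem rel38 : g_c4 * g_c8 * g_c4 = g_c8 := Subtype.ext (by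
  have := prod_eq (a := [c4, c8, c4]) (b := [c8]) (subCodes (by decide +kernel)) (subCodes (by decide +kernel))
    (List.all_eq_true.1 rels_ok _ (List.mem_of_getElem? (i := 38) rfl))
  simpa [g_c4, g_c8, el, mul_assoc] using this)

theorem rel39 : g_c4 * g_c9 * g_c4 = g_c5 * g_c9 := Subtype.ext (by
  have := prod_eq (a := [c4, c9, c4]) (b := [c5, c9]) (subCodes (by decide +kernel)) (subCodes (by decide +kernel))
    (List.all_eq_true.1 rels_ok _ (List.mem_of_getElem? (i := 39) rfl))
  simpa [g_c4, g_c5, g_c9, el, mul_assoc] using this)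

theorem rel40 : g_c5 * g_c5 = 1 := Subtype.ext (by
  have := prod_eq (a := [c5, c5]) (b := []) (subCodes (by decide +kernel)) (subCodes (by decide +kernel))
    (List.all_eq_true.1 rels_ok _ (List.mem_of_getElem? (i := 40) rfl))
  simpa [g_c5, el, mul_assoc] using this)

theorem rel41 : g_c5 * g_c6 * g_c5 = g_c6 := Subtype.ext (by
  have := prod_eq (a := [c5, c6, c5]) (b := [c6]) (subCodes (by decide +kernel)) (subCodes (by decide +kernel))
    (List.all_eq_true.1 rels_ok _ (List.mem_of_getElem? (i := 41) rfl))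
  simpa [g_c5, g_c6, el, mul_assoc] using this)

theorem rel42 : g_c5 * g_c7 * g_c5 = g_c7 := Subtype.ext (by
  have := prod_eq (a := [c5, c7, c5]) (b := [c7]) (subCodes (by decide +kernel)) (subCodes (by decide +kernel))
    (List.all_eq_true.1 rels_ok _ (List.mem_of_getElem? (i := 42) rfl))
  simpa [g_c5, g_c7, el, mul_assoc] using this)

theorem rel43 : g_c5 * g_c8 * g_c5 = g_c8 := Subtype.ext (by
  have := prod_eq (a := [c5, c8, c5]) (b := [c8]) (subCodes (by decide +kernel)) (subCodes (by decide +kernel))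
    (List.all_eq_true.1 rels_ok _ (List.mem_of_getElem? (i := 43) rfl))
  simpa [g_c5, g_c8, el, mul_assoc] using this)

theorem rel44 : g_c5 * g_c9 * g_c5 = g_c9 := Subtype.ext (by
  have := prod_eq (a := [c5, c9, c5]) (b := [c9]) (subCodes (by decide +kernel)) (subCodes (by decide +kernel))
    (List.all_eq_true.1 rels_ok _ (List.mem_of_getElem? (i := 44) rfl))
  simpa [g_c5, g_c9, el, mul_assoc] using this)

theorem rel45 : g_c6 * g_c6 = 1 := Subtype.ext (by
  have := prod_eq (a := [c6, c6]) (b := []) (subCodes (by decide +kernel)) (subCodes (by decide +kernel))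
    (List.all_eq_true.1 rels_ok _ (List.mem_of_getElem? (i := 45) rfl))
  simpa [g_c6, el, mul_assoc] using this)

theorem rel46 : g_c6 * g_c7 * g_c6 = g_c7 := Subtype.ext (by
  have := prod_eq (a := [c6, c7, c6]) (b := [c7]) (subCodes (by decide +kernel)) (subCodes (by decide +kernel))
    (List.all_eq_true.1 rels_ok _ (List.mem_of_getElem? (i := 46) rfl))
  simpa [g_c6, g_c7, el, mul_assoc] using this)

theorem rel47 : g_c6 * g_c8 * g_c6 = g_c8 := Subtype.ext (by
  have := prod_eq (a := [c6, c8, c6]) (b := [c8]) (subCodes (by decide +kernel)) (subCodes (by decide +kernel))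
    (List.all_eq_true.1 rels_ok _ (List.mem_of_getElem? (i := 47) rfl))
  simpa [g_c6, g_c8, el, mul_assoc] using this)

theorem rel48 : g_c6 * g_c9 * g_c6 = g_c9 := Subtype.ext (by
  have := prod_eq (a := [c6, c9, c6]) (b := [c9]) (subCodes (by decide +kernel)) (subCodes (by decide +kernel))
    (List.all_eq_true.1 rels_ok _ (List.mem_of_getElem? (i := 48) rfl))
  simpa [g_c6, g_c9, el, mul_assoc] using this)

theorem rel49 : g_c7 * g_c7 = 1 := Subtype.ext (by
  have := prod_eq (a := [c7, c7]) (b := []) (subCodes (by decide +kernel)) (subCodes (by decide +kernel))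
    (List.all_eq_true.1 rels_ok _ (List.mem_of_getElem? (i := 49) rfl))
  simpa [g_c7, el, mul_assoc] using this)

theorem rel50 : g_c7 * g_c8 * g_c7 = g_c8 := Subtype.ext (by
  have := prod_eq (a := [c7, c8, c7]) (b := [c8]) (subCodes (by decide +kernel)) (subCodes (by decide +kernel))
    (List.all_eq_true.1 rels_ok _ (List.mem_of_getElem? (i := 50) rfl))
  simpa [g_c7, g_c8, el, mul_assoc] using this)

theorem rel51 : g_c7 * g_c9 * g_c7 = g_c9 := Subtype.ext (by
  have := prod_eq (a := [c7, c9, c7]) (b := [c9]) (subCodes (by decide +kernel)) (subCodes (by decide +kernel))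
    (List.all_eq_true.1 rels_ok _ (List.mem_of_getElem? (i := 51) rfl))
  simpa [g_c7, g_c9, el, mul_assoc] using this)

theorem rel52 : g_c8 * g_c8 = 1 := Subtype.ext (by
  have := prod_eq (a := [c8, c8]) (b := []) (subCodes (by decide +kernel)) (subCodes (by decide +kernel))
    (List.all_eq_true.1 rels_ok _ (List.mem_of_getElem? (i := 52) rfl))
  simpa [g_c8, el, mul_assoc] using this)

theorem rel53 : g_c8 * g_c9 * g_c8 = g_c9 := Subtype.ext (by
  have := prod_eq (a := [c8, c9, c8]) (b := [c9]) (subCodes (by decide +kernel)) (subCodes (by decide +kernel))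
    (List.all_eq_true.1 rels_ok _ (List.mem_of_getElem? (i := 53) rfl))
  simpa [g_c8, g_c9, el, mul_assoc] using this)

theorem rel54 : g_c9 * g_c9 = 1 := Subtype.ext (by
  have := prod_eq (a := [c9, c9]) (b := []) (subCodes (by decide +kernel)) (subCodes (by decide +kernel))
    (List.all_eq_true.1 rels_ok _ (List.mem_of_getElem? (i := 54) rfl))
  simpa [g_c9, el, mul_assoc] using this)

theorem rel55 : g_a0 * g_a0 = 1 := Subtype.ext (by
  have := prod_eq (a := [a0, a0]) (b := []) (subCodes (by decide +kernel)) (subCodes (by decide +kernel))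
    (List.all_eq_true.1 rels_ok _ (List.mem_of_getElem? (i := 55) rfl))
  simpa [g_a0, el, mul_assoc] using this)

theorem rel56 : g_b0 * g_b0 = 1 := Subtype.ext (by
  have := prod_eq (a := [b0, b0]) (b := []) (subCodes (by decide +kernel)) (subCodes (by decide +kernel))
    (List.all_eq_true.1 rels_ok _ (List.mem_of_getElem? (i := 56) rfl))
  simpa [g_b0, el, mul_assoc] using this)

theorem rel57 : g_u3 * g_u3 * g_u3 = 1 := Subtype.ext (by
  have := prod_eq (a := [u3, u3, u3]) (b := []) (subCodes (by decide +kernel)) (subCodes (by decide +kernel))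
    (List.all_eq_true.1 rels_ok _ (List.mem_of_getElem? (i := 57) rfl))
  simpa [g_u3, el, mul_assoc] using this)

theorem rel58 : g_v3 * g_v3 * g_v3 = 1 := Subtype.ext (by
  have := prod_eq (a := [v3, v3, v3]) (b := []) (subCodes (by decide +kernel)) (subCodes (by decide +kernel))
    (List.all_eq_true.1 rels_ok _ (List.mem_of_getElem? (i := 58) rfl))
  simpa [g_v3, el, mul_assoc] using this)

theorem rel59 : g_w3 * g_w3 * g_w3 = 1 := Subtype.ext (by
  have := prod_eq (a := [w3, w3, w3]) (b := []) (subCodes (by decide +kernel)) (subCodes (by decide +kernel))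
    (List.all_eq_true.1 rels_ok _ (List.mem_of_getElem? (i := 59) rfl))
  simpa [g_w3, el, mul_assoc] using this)

theorem rel60 : g_u3 * g_v3 = g_w3 * g_v3 * g_u3 := Subtype.ext (by
  have := prod_eq (a := [u3, v3]) (b := [w3, v3, u3]) (subCodes (by decide +kernel)) (subCodes (by decide +kernel))
    (List.all_eq_true.1 rels_ok _ (List.mem_of_getElem? (i := 60) rfl))
  simpa [g_u3, g_v3, g_w3, el, mul_assoc] using this)

theorem rel61 : g_u3 * g_w3 = g_w3 * g_u3 := Subtype.ext (by
  have := prod_eq (a := [u3, w3]) (b := [w3, u3]) (subCodes (by decide +kernel)) (subCodes (by decide +kernel))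
    (List.all_eq_true.1 rels_ok _ (List.mem_of_getElem? (i := 61) rfl))
  simpa [g_u3, g_w3, el, mul_assoc] using this)

theorem rel62 : g_v3 * g_w3 = g_w3 * g_v3 := Subtype.ext (by
  have := prod_eq (a := [v3, w3]) (b := [w3, v3]) (subCodes (by decide +kernel)) (subCodes (by decide +kernel))
    (List.all_eq_true.1 rels_ok _ (List.mem_of_getElem? (i := 62) rfl))
  simpa [g_v3, g_w3, el, mul_assoc] using this)

theorem rel63 : g_u3 * g_gu * g_u3 = g_gu := Subtype.ext (by
  have := prod_eq (a := [u3, gu, u3]) (b := [gu]) (subCodes (by decide +kernel)) (subCodes (by decide +kernel))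
    (List.all_eq_true.1 rels_ok _ (List.mem_of_getElem? (i := 63) rfl))
  simpa [g_gu, g_u3, el, mul_assoc] using this)

theorem rel64 : g_gu * g_w3 = g_w3 * g_gu := Subtype.ext (by
  have := prod_eq (a := [gu, w3]) (b := [w3, gu]) (subCodes (by decide +kernel)) (subCodes (by decide +kernel))
    (List.all_eq_true.1 rels_ok _ (List.mem_of_getElem? (i := 64) rfl))
  simpa [g_gu, g_w3, el, mul_assoc] using this)

theorem rel65 : g_v3 * g_gv * g_v3 = g_gv := Subtype.ext (by
  have := prod_eq (a := [v3, gv, v3]) (b := [gv]) (subCodes (by decide +kernel)) (subCodes (by decide +kernel))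
    (List.all_eq_true.1 rels_ok _ (List.mem_of_getElem? (i := 65) rfl))
  simpa [g_gv, g_v3, el, mul_assoc] using this)

theorem rel66 : g_gv * g_w3 = g_w3 * g_gv := Subtype.ext (by
  have := prod_eq (a := [gv, w3]) (b := [w3, gv]) (subCodes (by decide +kernel)) (subCodes (by decide +kernel))
    (List.all_eq_true.1 rels_ok _ (List.mem_of_getElem? (i := 66) rfl))
  simpa [g_gv, g_w3, el, mul_assoc] using this)

theorem cert0 : ∃ k : Cfsg.M24, k * g_b0 * k⁻¹ = g_c0 := by
  refine ⟨el h0 mem_h0, mul_inv_eq_iff_eq_mul.2 (Subtype.ext ?_)⟩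
  have := prod_eq (a := [h0, b0]) (b := [c0, h0]) (subCodes (by decide +kernel)) (subCodes (by decide +kernel))
    (List.all_eq_true.1 certs_ok _ (List.mem_of_getElem? (i := 0) rfl))
  simpa [g_b0, g_c0, el, mul_assoc] using this

theorem cert1 : ∃ k : Cfsg.M24, k * g_b0 * k⁻¹ = g_c1 := by
  refine ⟨el h1 mem_h1, mul_inv_eq_iff_eq_mul.2 (Subtype.ext ?_)⟩
  have := prod_eq (a := [h1, b0]) (b := [c1, h1]) (subCodes (by decide +kernel)) (subCodes (by decide +kernel))
    (List.all_eq_true.1 certs_ok _ (List.mem_of_getElem? (i := 1) rfl))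
  simpa [g_b0, g_c1, el, mul_assoc] using this

theorem cert2 : ∃ k : Cfsg.M24, k * g_b0 * k⁻¹ = g_c2 := by
  refine ⟨el h2 mem_h2, mul_inv_eq_iff_eq_mul.2 (Subtype.ext ?_)⟩
  have := prod_eq (a := [h2, b0]) (b := [c2, h2]) (subCodes (by decide +kernel)) (subCodes (by decide +kernel))
    (List.all_eq_true.1 certs_ok _ (List.mem_of_getElem? (i := 2) rfl))
  simpa [g_b0, g_c2, el, mul_assoc] using this

theorem cert3 : ∃ k : Cfsg.M24, k * g_b0 * k⁻¹ = g_c3 := by
  refine ⟨el h3 mem_h3, mul_inv_eq_iff_eq_mul.2 (Subtype.ext ?_)⟩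
  have := prod_eq (a := [h3, b0]) (b := [c3, h3]) (subCodes (by decide +kernel)) (subCodes (by decide +kernel))
    (List.all_eq_true.1 certs_ok _ (List.mem_of_getElem? (i := 3) rfl))
  simpa [g_b0, g_c3, el, mul_assoc] using this

theorem cert4 : ∃ k : Cfsg.M24, k * g_b0 * k⁻¹ = g_c4 := by
  refine ⟨el h4 mem_h4, mul_inv_eq_iff_eq_mul.2 (Subtype.ext ?_)⟩
  have := prod_eq (a := [h4, b0]) (b := [c4, h4]) (subCodes (by decide +kernel)) (subCodes (by decide +kernel))
    (List.all_eq_true.1 certs_ok _ (List.mem_of_getElem? (i := 4) rfl))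
  simpa [g_b0, g_c4, el, mul_assoc] using this

theorem cert5 : ∃ k : Cfsg.M24, k * g_a0 * k⁻¹ = g_c5 := by
  refine ⟨el h5 mem_h5, mul_inv_eq_iff_eq_mul.2 (Subtype.ext ?_)⟩
  have := prod_eq (a := [h5, a0]) (b := [c5, h5]) (subCodes (by decide +kernel)) (subCodes (by decide +kernel))
    (List.all_eq_true.1 certs_ok _ (List.mem_of_getElem? (i := 5) rfl))
  simpa [g_a0, g_c5, el, mul_assoc] using this

theorem cert6 : ∃ k : Cfsg.M24, k * g_a0 * k⁻¹ = g_c6 := by
  refine ⟨el h6 mem_h6, mul_inv_eq_iff_eq_mul.2 (Subtype.ext ?_)⟩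
  have := prod_eq (a := [h6, a0]) (b := [c6, h6]) (subCodes (by decide +kernel)) (subCodes (by decide +kernel))
    (List.all_eq_true.1 certs_ok _ (List.mem_of_getElem? (i := 6) rfl))
  simpa [g_a0, g_c6, el, mul_assoc] using this

theorem cert7 : ∃ k : Cfsg.M24, k * g_b0 * k⁻¹ = g_c7 := by
  refine ⟨el h7 mem_h7, mul_inv_eq_iff_eq_mul.2 (Subtype.ext ?_)⟩
  have := prod_eq (a := [h7, b0]) (b := [c7, h7]) (subCodes (by decide +kernel)) (subCodes (by decide +kernel))
    (List.all_eq_true.1 certs_ok _ (List.mem_of_getElem? (i := 7) rfl))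
  simpa [g_b0, g_c7, el, mul_assoc] using this

theorem cert8 : ∃ k : Cfsg.M24, k * g_a0 * k⁻¹ = g_c8 := by
  refine ⟨el h8 mem_h8, mul_inv_eq_iff_eq_mul.2 (Subtype.ext ?_)⟩
  have := prod_eq (a := [h8, a0]) (b := [c8, h8]) (subCodes (by decide +kernel)) (subCodes (by decide +kernel))
    (List.all_eq_true.1 certs_ok _ (List.mem_of_getElem? (i := 8) rfl))
  simpa [g_a0, g_c8, el, mul_assoc] using this

theorem cert9 : ∃ k : Cfsg.M24, k * g_a0 * k⁻¹ = g_c9 := by
  refine ⟨el h9 mem_h9, mul_inv_eq_iff_eq_mul.2 (Subtype.ext ?_)⟩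
  have := prod_eq (a := [h9, a0]) (b := [c9, h9]) (subCodes (by decide +kernel)) (subCodes (by decide +kernel))
    (List.all_eq_true.1 certs_ok _ (List.mem_of_getElem? (i := 9) rfl))
  simpa [g_a0, g_c9, el, mul_assoc] using this

theorem cert10 : ∃ k : Cfsg.M24, k * g_b0 * k⁻¹ = g_c0 * g_c4 := by
  refine ⟨el h10 mem_h10, mul_inv_eq_iff_eq_mul.2 (Subtype.ext ?_)⟩
  have := prod_eq (a := [h10, b0]) (b := [c0, c4, h10]) (subCodes (by decide +kernel)) (subCodes (by decide +kernel))
    (List.all_eq_true.1 certs_ok _ (List.mem_of_getElem? (i := 10) rfl))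
  simpa [g_b0, g_c0, g_c4, el, mul_assoc] using this

theorem cert11 : ∃ k : Cfsg.M24, k * g_b0 * k⁻¹ = g_c0 * g_c5 := by
  refine ⟨el h11 mem_h11, mul_inv_eq_iff_eq_mul.2 (Subtype.ext ?_)⟩
  have := prod_eq (a := [h11, b0]) (b := [c0, c5, h11]) (subCodes (by decide +kernel)) (subCodes (by decide +kernel))
    (List.all_eq_true.1 certs_ok _ (List.mem_of_getElem? (i := 11) rfl))
  simpa [g_b0, g_c0, g_c5, el, mul_assoc] using this

theorem cert12 : ∃ k : Cfsg.M24, k * g_b0 * k⁻¹ = g_c0 * g_c6 := by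
  refine ⟨el h12 mem_h12, mul_inv_eq_iff_eq_mul.2 (Subtype.ext ?_)⟩
  have := prod_eq (a := [h12, b0]) (b := [c0, c6, h12]) (subCodes (by decide +kernel)) (subCodes (by decide +kernel))
    (List.all_eq_true.1 certs_ok _ (List.mem_of_getElem? (i := 12) rfl))
  simpa [g_b0, g_c0, g_c6, el, mul_assoc] using this

theorem cert13 : ∃ k : Cfsg.M24, k * g_b0 * k⁻¹ = g_c0 * g_c8 := by
  refine ⟨el h13 mem_h13, mul_inv_eq_iff_eq_mul.2 (Subtype.ext ?_)⟩
  have := prod_eq (a := [h13, b0]) (b := [c0, c8, h13]) (subCodes (by decide +kernel)) (subCodes (by decide +kernel))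
    (List.all_eq_true.1 certs_ok _ (List.mem_of_getElem? (i := 13) rfl))
  simpa [g_b0, g_c0, g_c8, el, mul_assoc] using this

theorem cert14 : ∃ k : Cfsg.M24, k * g_b0 * k⁻¹ = g_c1 * g_c2 := by
  refine ⟨el h14 mem_h14, mul_inv_eq_iff_eq_mul.2 (Subtype.ext ?_)⟩
  have := prod_eq (a := [h14, b0]) (b := [c1, c2, h14]) (subCodes (by decide +kernel)) (subCodes (by decide +kernel))
    (List.all_eq_true.1 certs_ok _ (List.mem_of_getElem? (i := 14) rfl))
  simpa [g_b0, g_c1, g_c2, el, mul_assoc] using this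

theorem cert15 : ∃ k : Cfsg.M24, k * g_b0 * k⁻¹ = g_c1 * g_c4 := by
  refine ⟨el h15 mem_h15, mul_inv_eq_iff_eq_mul.2 (Subtype.ext ?_)⟩
  have := prod_eq (a := [h15, b0]) (b := [c1, c4, h15]) (subCodes (by decide +kernel)) (subCodes (by decide +kernel))
    (List.all_eq_true.1 certs_ok _ (List.mem_of_getElem? (i := 15) rfl))
  simpa [g_b0, g_c1, g_c4, el, mul_assoc] using this

theorem cert16 : ∃ k : Cfsg.M24, k * g_b0 * k⁻¹ = g_c1 * g_c5 := by
  refine ⟨el h16 mem_h16, mul_inv_eq_iff_eq_mul.2 (Subtype.ext ?_)⟩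
  have := prod_eq (a := [h16, b0]) (b := [c1, c5, h16]) (subCodes (by decide +kernel)) (subCodes (by decide +kernel))
    (List.all_eq_true.1 certs_ok _ (List.mem_of_getElem? (i := 16) rfl))
  simpa [g_b0, g_c1, g_c5, el, mul_assoc] using this

theorem cert17 : ∃ k : Cfsg.M24, k * g_b0 * k⁻¹ = g_c1 * g_c6 := by
  refine ⟨el h17 mem_h17, mul_inv_eq_iff_eq_mul.2 (Subtype.ext ?_)⟩
  have := prod_eq (a := [h17, b0]) (b := [c1, c6, h17]) (subCodes (by decide +kernel)) (subCodes (by decide +kernel))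
    (List.all_eq_true.1 certs_ok _ (List.mem_of_getElem? (i := 17) rfl))
  simpa [g_b0, g_c1, g_c6, el, mul_assoc] using this

theorem cert18 : ∃ k : Cfsg.M24, k * g_b0 * k⁻¹ = g_c1 * g_c7 := by
  refine ⟨el h18 mem_h18, mul_inv_eq_iff_eq_mul.2 (Subtype.ext ?_)⟩
  have := prod_eq (a := [h18, b0]) (b := [c1, c7, h18]) (subCodes (by decide +kernel)) (subCodes (by decide +kernel))
    (List.all_eq_true.1 certs_ok _ (List.mem_of_getElem? (i := 18) rfl))
  simpa [g_b0, g_c1, g_c7, el, mul_assoc] using this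

theorem cert19 : ∃ k : Cfsg.M24, k * g_a0 * k⁻¹ = g_c2 * g_c5 := by
  refine ⟨el h19 mem_h19, mul_inv_eq_iff_eq_mul.2 (Subtype.ext ?_)⟩
  have := prod_eq (a := [h19, a0]) (b := [c2, c5, h19]) (subCodes (by decide +kernel)) (subCodes (by decide +kernel))
    (List.all_eq_true.1 certs_ok _ (List.mem_of_getElem? (i := 19) rfl))
  simpa [g_a0, g_c2, g_c5, el, mul_assoc] using this

theorem cert20 : ∃ k : Cfsg.M24, k * g_b0 * k⁻¹ = g_c2 * g_c6 := by
  refine ⟨el h20 mem_h20, mul_inv_eq_iff_eq_mul.2 (Subtype.ext ?_)⟩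
  have := prod_eq (a := [h20, b0]) (b := [c2, c6, h20]) (subCodes (by decide +kernel)) (subCodes (by decide +kernel))
    (List.all_eq_true.1 certs_ok _ (List.mem_of_getElem? (i := 20) rfl))
  simpa [g_b0, g_c2, g_c6, el, mul_assoc] using this

theorem cert21 : ∃ k : Cfsg.M24, k * g_a0 * k⁻¹ = g_c2 * g_c7 := by
  refine ⟨el h21 mem_h21, mul_inv_eq_iff_eq_mul.2 (Subtype.ext ?_)⟩
  have := prod_eq (a := [h21, a0]) (b := [c2, c7, h21]) (subCodes (by decide +kernel)) (subCodes (by decide +kernel))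
    (List.all_eq_true.1 certs_ok _ (List.mem_of_getElem? (i := 21) rfl))
  simpa [g_a0, g_c2, g_c7, el, mul_assoc] using this

theorem cert22 : ∃ k : Cfsg.M24, k * g_a0 * k⁻¹ = g_c2 * g_c8 := by
  refine ⟨el h22 mem_h22, mul_inv_eq_iff_eq_mul.2 (Subtype.ext ?_)⟩
  have := prod_eq (a := [h22, a0]) (b := [c2, c8, h22]) (subCodes (by decide +kernel)) (subCodes (by decide +kernel))
    (List.all_eq_true.1 certs_ok _ (List.mem_of_getElem? (i := 22) rfl))
  simpa [g_a0, g_c2, g_c8, el, mul_assoc] using this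

theorem cert23 : ∃ k : Cfsg.M24, k * g_a0 * k⁻¹ = g_c2 * g_c9 := by
  refine ⟨el h23 mem_h23, mul_inv_eq_iff_eq_mul.2 (Subtype.ext ?_)⟩
  have := prod_eq (a := [h23, a0]) (b := [c2, c9, h23]) (subCodes (by decide +kernel)) (subCodes (by decide +kernel))
    (List.all_eq_true.1 certs_ok _ (List.mem_of_getElem? (i := 23) rfl))
  simpa [g_a0, g_c2, g_c9, el, mul_assoc] using this

theorem cert24 : ∃ k : Cfsg.M24, k * g_b0 * k⁻¹ = g_c3 * g_c7 := by
  refine ⟨el h24 mem_h24, mul_inv_eq_iff_eq_mul.2 (Subtype.ext ?_)⟩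
  have := prod_eq (a := [h24, b0]) (b := [c3, c7, h24]) (subCodes (by decide +kernel)) (subCodes (by decide +kernel))
    (List.all_eq_true.1 certs_ok _ (List.mem_of_getElem? (i := 24) rfl))
  simpa [g_b0, g_c3, g_c7, el, mul_assoc] using this

theorem cert25 : ∃ k : Cfsg.M24, k * g_b0 * k⁻¹ = g_c3 * g_c8 := by
  refine ⟨el h25 mem_h25, mul_inv_eq_iff_eq_mul.2 (Subtype.ext ?_)⟩
  have := prod_eq (a := [h25, b0]) (b := [c3, c8, h25]) (subCodes (by decide +kernel)) (subCodes (by decide +kernel))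
    (List.all_eq_true.1 certs_ok _ (List.mem_of_getElem? (i := 25) rfl))
  simpa [g_b0, g_c3, g_c8, el, mul_assoc] using this

theorem cert26 : ∃ k : Cfsg.M24, k * g_b0 * k⁻¹ = g_c4 * g_c5 := by
  refine ⟨el h26 mem_h26, mul_inv_eq_iff_eq_mul.2 (Subtype.ext ?_)⟩
  have := prod_eq (a := [h26, b0]) (b := [c4, c5, h26]) (subCodes (by decide +kernel)) (subCodes (by decide +kernel))
    (List.all_eq_true.1 certs_ok _ (List.mem_of_getElem? (i := 26) rfl))
  simpa [g_b0, g_c4, g_c5, el, mul_assoc] using this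

theorem cert27 : ∃ k : Cfsg.M24, k * g_b0 * k⁻¹ = g_c4 * g_c6 := by
  refine ⟨el h27 mem_h27, mul_inv_eq_iff_eq_mul.2 (Subtype.ext ?_)⟩
  have := prod_eq (a := [h27, b0]) (b := [c4, c6, h27]) (subCodes (by decide +kernel)) (subCodes (by decide +kernel))
    (List.all_eq_true.1 certs_ok _ (List.mem_of_getElem? (i := 27) rfl))
  simpa [g_b0, g_c4, g_c6, el, mul_assoc] using this

theorem cert28 : ∃ k : Cfsg.M24, k * g_b0 * k⁻¹ = g_c4 * g_c8 := by
  refine ⟨el h28 mem_h28, mul_inv_eq_iff_eq_mul.2 (Subtype.ext ?_)⟩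
  have := prod_eq (a := [h28, b0]) (b := [c4, c8, h28]) (subCodes (by decide +kernel)) (subCodes (by decide +kernel))
    (List.all_eq_true.1 certs_ok _ (List.mem_of_getElem? (i := 28) rfl))
  simpa [g_b0, g_c4, g_c8, el, mul_assoc] using this

theorem cert29 : ∃ k : Cfsg.M24, k * g_a0 * k⁻¹ = g_c5 * g_c6 := by
  refine ⟨el h29 mem_h29, mul_inv_eq_iff_eq_mul.2 (Subtype.ext ?_)⟩
  have := prod_eq (a := [h29, a0]) (b := [c5, c6, h29]) (subCodes (by decide +kernel)) (subCodes (by decide +kernel))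
    (List.all_eq_true.1 certs_ok _ (List.mem_of_getElem? (i := 29) rfl))
  simpa [g_a0, g_c5, g_c6, el, mul_assoc] using this

theorem cert30 : ∃ k : Cfsg.M24, k * g_a0 * k⁻¹ = g_c5 * g_c7 := by
  refine ⟨el h30 mem_h30, mul_inv_eq_iff_eq_mul.2 (Subtype.ext ?_)⟩
  have := prod_eq (a := [h30, a0]) (b := [c5, c7, h30]) (subCodes (by decide +kernel)) (subCodes (by decide +kernel))
    (List.all_eq_true.1 certs_ok _ (List.mem_of_getElem? (i := 30) rfl))
  simpa [g_a0, g_c5, g_c7, el, mul_assoc] using this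

theorem cert31 : ∃ k : Cfsg.M24, k * g_b0 * k⁻¹ = g_c5 * g_c8 := by
  refine ⟨el h31 mem_h31, mul_inv_eq_iff_eq_mul.2 (Subtype.ext ?_)⟩
  have := prod_eq (a := [h31, b0]) (b := [c5, c8, h31]) (subCodes (by decide +kernel)) (subCodes (by decide +kernel))
    (List.all_eq_true.1 certs_ok _ (List.mem_of_getElem? (i := 31) rfl))
  simpa [g_b0, g_c5, g_c8, el, mul_assoc] using this

theorem cert32 : ∃ k : Cfsg.M24, k * g_a0 * k⁻¹ = g_c5 * g_c9 := by
  refine ⟨el h32 mem_h32, mul_inv_eq_iff_eq_mul.2 (Subtype.ext ?_)⟩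
  have := prod_eq (a := [h32, a0]) (b := [c5, c9, h32]) (subCodes (by decide +kernel)) (subCodes (by decide +kernel))
    (List.all_eq_true.1 certs_ok _ (List.mem_of_getElem? (i := 32) rfl))
  simpa [g_a0, g_c5, g_c9, el, mul_assoc] using this

theorem cert33 : ∃ k : Cfsg.M24, k * g_a0 * k⁻¹ = g_c6 * g_c7 := by
  refine ⟨el h33 mem_h33, mul_inv_eq_iff_eq_mul.2 (Subtype.ext ?_)⟩
  have := prod_eq (a := [h33, a0]) (b := [c6, c7, h33]) (subCodes (by decide +kernel)) (subCodes (by decide +kernel))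
    (List.all_eq_true.1 certs_ok _ (List.mem_of_getElem? (i := 33) rfl))
  simpa [g_a0, g_c6, g_c7, el, mul_assoc] using this

theorem cert34 : ∃ k : Cfsg.M24, k * g_b0 * k⁻¹ = g_c6 * g_c8 := by
  refine ⟨el h34 mem_h34, mul_inv_eq_iff_eq_mul.2 (Subtype.ext ?_)⟩
  have := prod_eq (a := [h34, b0]) (b := [c6, c8, h34]) (subCodes (by decide +kernel)) (subCodes (by decide +kernel))
    (List.all_eq_true.1 certs_ok _ (List.mem_of_getElem? (i := 34) rfl))
  simpa [g_b0, g_c6, g_c8, el, mul_assoc] using this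

theorem cert35 : ∃ k : Cfsg.M24, k * g_a0 * k⁻¹ = g_c6 * g_c9 := by
  refine ⟨el h35 mem_h35, mul_inv_eq_iff_eq_mul.2 (Subtype.ext ?_)⟩
  have := prod_eq (a := [h35, a0]) (b := [c6, c9, h35]) (subCodes (by decide +kernel)) (subCodes (by decide +kernel))
    (List.all_eq_true.1 certs_ok _ (List.mem_of_getElem? (i := 35) rfl))
  simpa [g_a0, g_c6, g_c9, el, mul_assoc] using this

theorem cert36 : ∃ k : Cfsg.M24, k * g_b0 * k⁻¹ = g_c7 * g_c8 := by
  refine ⟨el h36 mem_h36, mul_inv_eq_iff_eq_mul.2 (Subtype.ext ?_)⟩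
  have := prod_eq (a := [h36, b0]) (b := [c7, c8, h36]) (subCodes (by decide +kernel)) (subCodes (by decide +kernel))
    (List.all_eq_true.1 certs_ok _ (List.mem_of_getElem? (i := 36) rfl))
  simpa [g_b0, g_c7, g_c8, el, mul_assoc] using this

theorem cert37 : ∃ k : Cfsg.M24, k * g_a0 * k⁻¹ = g_c7 * g_c9 := by
  refine ⟨el h37 mem_h37, mul_inv_eq_iff_eq_mul.2 (Subtype.ext ?_)⟩
  have := prod_eq (a := [h37, a0]) (b := [c7, c9, h37]) (subCodes (by decide +kernel)) (subCodes (by decide +kernel))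
    (List.all_eq_true.1 certs_ok _ (List.mem_of_getElem? (i := 37) rfl))
  simpa [g_a0, g_c7, g_c9, el, mul_assoc] using this

theorem cert38 : ∃ k : Cfsg.M24, k * g_b0 * k⁻¹ = g_c8 * g_c9 := by
  refine ⟨el h38 mem_h38, mul_inv_eq_iff_eq_mul.2 (Subtype.ext ?_)⟩
  have := prod_eq (a := [h38, b0]) (b := [c8, c9, h38]) (subCodes (by decide +kernel)) (subCodes (by decide +kernel))
    (List.all_eq_true.1 certs_ok _ (List.mem_of_getElem? (i := 38) rfl))
  simpa [g_b0, g_c8, g_c9, el, mul_assoc] using this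

theorem cert39 : ∃ k : Cfsg.M24, k * g_a0 * k⁻¹ = g_c0 * g_c3 * g_c7 := by
  refine ⟨el h39 mem_h39, mul_inv_eq_iff_eq_mul.2 (Subtype.ext ?_)⟩
  have := prod_eq (a := [h39, a0]) (b := [c0, c3, c7, h39]) (subCodes (by decide +kernel)) (subCodes (by decide +kernel))
    (List.all_eq_true.1 certs_ok _ (List.mem_of_getElem? (i := 39) rfl))
  simpa [g_a0, g_c0, g_c3, g_c7, el, mul_assoc] using this

theorem cert40 : ∃ k : Cfsg.M24, k * g_b0 * k⁻¹ = g_c1 * g_c2 * g_c3 := by
  refine ⟨el h40 mem_h40, mul_inv_eq_iff_eq_mul.2 (Subtype.ext ?_)⟩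
  have := prod_eq (a := [h40, b0]) (b := [c1, c2, c3, h40]) (subCodes (by decide +kernel)) (subCodes (by decide +kernel))
    (List.all_eq_true.1 certs_ok _ (List.mem_of_getElem? (i := 40) rfl))
  simpa [g_b0, g_c1, g_c2, g_c3, el, mul_assoc] using this

theorem cert41 : ∃ k : Cfsg.M24, k * g_a0 * k⁻¹ = g_a0 := by
  refine ⟨el k8x0 mem_k8x0, mul_inv_eq_iff_eq_mul.2 (Subtype.ext ?_)⟩
  have := prod_eq (a := [k8x0, a0]) (b := [a0, k8x0]) (subCodes (by decide +kernel)) (subCodes (by decide +kernel))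
    (List.all_eq_true.1 certs_ok _ (List.mem_of_getElem? (i := 41) rfl))
  simpa [g_a0, el, mul_assoc] using this

theorem cert42 : ∃ k : Cfsg.M24, k * g_a0 * k⁻¹ = g_a1 := by
  refine ⟨el k8x1 mem_k8x1, mul_inv_eq_iff_eq_mul.2 (Subtype.ext ?_)⟩
  have := prod_eq (a := [k8x1, a0]) (b := [a1, k8x1]) (subCodes (by decide +kernel)) (subCodes (by decide +kernel))
    (List.all_eq_true.1 certs_ok _ (List.mem_of_getElem? (i := 42) rfl))
  simpa [g_a0, g_a1, el, mul_assoc] using this

theorem cert43 : ∃ k : Cfsg.M24, k * g_a0 * k⁻¹ = g_a2 := by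
  refine ⟨el k8x2 mem_k8x2, mul_inv_eq_iff_eq_mul.2 (Subtype.ext ?_)⟩
  have := prod_eq (a := [k8x2, a0]) (b := [a2, k8x2]) (subCodes (by decide +kernel)) (subCodes (by decide +kernel))
    (List.all_eq_true.1 certs_ok _ (List.mem_of_getElem? (i := 43) rfl))
  simpa [g_a0, g_a2, el, mul_assoc] using this

theorem cert44 : ∃ k : Cfsg.M24, k * g_a0 * k⁻¹ = g_a0 * g_a1 := by
  refine ⟨el k8x3 mem_k8x3, mul_inv_eq_iff_eq_mul.2 (Subtype.ext ?_)⟩
  have := prod_eq (a := [k8x3, a0]) (b := [a0, a1, k8x3]) (subCodes (by decide +kernel)) (subCodes (by decide +kernel))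
    (List.all_eq_true.1 certs_ok _ (List.mem_of_getElem? (i := 44) rfl))
  simpa [g_a0, g_a1, el, mul_assoc] using this

theorem cert45 : ∃ k : Cfsg.M24, k * g_a0 * k⁻¹ = g_a0 * g_a2 := by
  refine ⟨el k8x4 mem_k8x4, mul_inv_eq_iff_eq_mul.2 (Subtype.ext ?_)⟩
  have := prod_eq (a := [k8x4, a0]) (b := [a0, a2, k8x4]) (subCodes (by decide +kernel)) (subCodes (by decide +kernel))
    (List.all_eq_true.1 certs_ok _ (List.mem_of_getElem? (i := 45) rfl))
  simpa [g_a0, g_a2, el, mul_assoc] using this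

theorem cert46 : ∃ k : Cfsg.M24, k * g_a0 * k⁻¹ = g_a1 * g_a2 := by
  refine ⟨el k8x5 mem_k8x5, mul_inv_eq_iff_eq_mul.2 (Subtype.ext ?_)⟩
  have := prod_eq (a := [k8x5, a0]) (b := [a1, a2, k8x5]) (subCodes (by decide +kernel)) (subCodes (by decide +kernel))
    (List.all_eq_true.1 certs_ok _ (List.mem_of_getElem? (i := 46) rfl))
  simpa [g_a0, g_a1, g_a2, el, mul_assoc] using this

theorem cert47 : ∃ k : Cfsg.M24, k * g_a0 * k⁻¹ = g_a0 * g_a1 * g_a2 := by
  refine ⟨el k8x6 mem_k8x6, mul_inv_eq_iff_eq_mul.2 (Subtype.ext ?_)⟩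
  have := prod_eq (a := [k8x6, a0]) (b := [a0, a1, a2, k8x6]) (subCodes (by decide +kernel)) (subCodes (by decide +kernel))
    (List.all_eq_true.1 certs_ok _ (List.mem_of_getElem? (i := 47) rfl))
  simpa [g_a0, g_a1, g_a2, el, mul_assoc] using this

theorem cert48 : ∃ k : Cfsg.M24, k * g_b0 * k⁻¹ = g_b0 := by
  refine ⟨el k0x0 mem_k0x0, mul_inv_eq_iff_eq_mul.2 (Subtype.ext ?_)⟩
  have := prod_eq (a := [k0x0, b0]) (b := [b0, k0x0]) (subCodes (by decide +kernel)) (subCodes (by decide +kernel))
    (List.all_eq_true.1 certs_ok _ (List.mem_of_getElem? (i := 48) rfl))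
  simpa [g_b0, el, mul_assoc] using this

theorem cert49 : ∃ k : Cfsg.M24, k * g_b0 * k⁻¹ = g_b1 := by
  refine ⟨el k0x1 mem_k0x1, mul_inv_eq_iff_eq_mul.2 (Subtype.ext ?_)⟩
  have := prod_eq (a := [k0x1, b0]) (b := [b1, k0x1]) (subCodes (by decide +kernel)) (subCodes (by decide +kernel))
    (List.all_eq_true.1 certs_ok _ (List.mem_of_getElem? (i := 49) rfl))
  simpa [g_b0, g_b1, el, mul_assoc] using this

theorem cert50 : ∃ k : Cfsg.M24, k * g_b0 * k⁻¹ = g_b2 := by
  refine ⟨el k0x2 mem_k0x2, mul_inv_eq_iff_eq_mul.2 (Subtype.ext ?_)⟩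
  have := prod_eq (a := [k0x2, b0]) (b := [b2, k0x2]) (subCodes (by decide +kernel)) (subCodes (by decide +kernel))
    (List.all_eq_true.1 certs_ok _ (List.mem_of_getElem? (i := 50) rfl))
  simpa [g_b0, g_b2, el, mul_assoc] using this

theorem cert51 : ∃ k : Cfsg.M24, k * g_b0 * k⁻¹ = g_b0 * g_b1 := by
  refine ⟨el k0x3 mem_k0x3, mul_inv_eq_iff_eq_mul.2 (Subtype.ext ?_)⟩
  have := prod_eq (a := [k0x3, b0]) (b := [b0, b1, k0x3]) (subCodes (by decide +kernel)) (subCodes (by decide +kernel))
    (List.all_eq_true.1 certs_ok _ (List.mem_of_getElem? (i := 51) rfl))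
  simpa [g_b0, g_b1, el, mul_assoc] using this

theorem cert52 : ∃ k : Cfsg.M24, k * g_b0 * k⁻¹ = g_b0 * g_b2 := by
  refine ⟨el k0x4 mem_k0x4, mul_inv_eq_iff_eq_mul.2 (Subtype.ext ?_)⟩
  have := prod_eq (a := [k0x4, b0]) (b := [b0, b2, k0x4]) (subCodes (by decide +kernel)) (subCodes (by decide +kernel))
    (List.all_eq_true.1 certs_ok _ (List.mem_of_getElem? (i := 52) rfl))
  simpa [g_b0, g_b2, el, mul_assoc] using this

theorem cert53 : ∃ k : Cfsg.M24, k * g_b0 * k⁻¹ = g_b1 * g_b2 := by
  refine ⟨el k0x5 mem_k0x5, mul_inv_eq_iff_eq_mul.2 (Subtype.ext ?_)⟩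
  have := prod_eq (a := [k0x5, b0]) (b := [b1, b2, k0x5]) (subCodes (by decide +kernel)) (subCodes (by decide +kernel))
    (List.all_eq_true.1 certs_ok _ (List.mem_of_getElem? (i := 53) rfl))
  simpa [g_b0, g_b1, g_b2, el, mul_assoc] using this

theorem cert54 : ∃ k : Cfsg.M24, k * g_b0 * k⁻¹ = g_b0 * g_b1 * g_b2 := by
  refine ⟨el k0x6 mem_k0x6, mul_inv_eq_iff_eq_mul.2 (Subtype.ext ?_)⟩
  have := prod_eq (a := [k0x6, b0]) (b := [b0, b1, b2, k0x6]) (subCodes (by decide +kernel)) (subCodes (by decide +kernel))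
    (List.all_eq_true.1 certs_ok _ (List.mem_of_getElem? (i := 54) rfl))
  simpa [g_b0, g_b1, g_b2, el, mul_assoc] using this

theorem w3_ne : g_w3 ≠ 1 := fun h => w3_moves (by
  have e : permOf w3 = 1 := congrArg Subtype.val h
  have := idx_permOf (code_mem mem_w3).1 (pt 0)
  rw [e, Equiv.Perm.one_apply, idx_pt (by norm_num)] at this
  exact this.symm)

theorem inj_of_increasing {l : List ℕ} {f : ℕ → ℕ} (h : increasing (l.map f) = true) (a b : Fin l.length)
    (hk : f l[a.1] = f l[b.1]) : a = b := by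
  have hnd : (l.map f).Nodup := (pairwise_of_increasing h).imp fun h => h.ne
  have ha : a.1 < (l.map f).length := by rw [List.length_map]; exact a.2
  have hb : b.1 < (l.map f).length := by rw [List.length_map]; exact b.2
  have h' : (l.map f)[a.1] = (l.map f)[b.1] := by rw [List.getElem_map, List.getElem_map]; exact hk
  exact Fin.ext (hnd.getElem_inj_iff.1 h')

theorem bitWord_sub (n : ℕ) : ∀ c ∈ bitWord n, c ∈ ([c0, c1, c2, c3, c4, c5, c6, c7, c8, c9] : List ℕ) := by
  intro c hc
  simp only [bitWord, List.mem_map, List.mem_filter] at hc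
  obtain ⟨q, ⟨hq, -⟩, rfl⟩ := hc
  exact (List.mem_zipIdx' hq).2 ▸ List.getElem_mem _

theorem gens_card_ge : 1024 ≤ Nat.card (Subgroup.closure ({g_c0, g_c1, g_c2, g_c3, g_c4, g_c5, g_c6, g_c7, g_c8, g_c9} : Set Cfsg.M24)) := by
  set K := Subgroup.closure ({g_c0, g_c1, g_c2, g_c3, g_c4, g_c5, g_c6, g_c7, g_c8, g_c9} : Set Cfsg.M24)
  have hmem : ∀ c ∈ ([c0, c1, c2, c3, c4, c5, c6, c7, c8, c9] : List ℕ), permOf c ∈ K.map Cfsg.M24.subtype ∧ c ∈ allCodes := by
    intro c hc
    simp only [List.mem_cons, List.not_mem_nil, or_false] at hc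
    rcases hc with rfl | rfl | rfl | rfl | rfl | rfl | rfl | rfl | rfl | rfl
    · exact ⟨⟨g_c0, Subgroup.subset_closure (by simp), rfl⟩, mem_c0⟩
    · exact ⟨⟨g_c1, Subgroup.subset_closure (by simp), rfl⟩, mem_c1⟩
    · exact ⟨⟨g_c2, Subgroup.subset_closure (by simp), rfl⟩, mem_c2⟩
    · exact ⟨⟨g_c3, Subgroup.subset_closure (by simp), rfl⟩, mem_c3⟩
    · exact ⟨⟨g_c4, Subgroup.subset_closure (by simp), rfl⟩, mem_c4⟩
    · exact ⟨⟨g_c5, Subgroup.subset_closure (by simp), rfl⟩, mem_c5⟩
    · exact ⟨⟨g_c6, Subgroup.subset_closure (by simp), rfl⟩, mem_c6⟩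
    · exact ⟨⟨g_c7, Subgroup.subset_closure (by simp), rfl⟩, mem_c7⟩
    · exact ⟨⟨g_c8, Subgroup.subset_closure (by simp), rfl⟩, mem_c8⟩
    · exact ⟨⟨g_c9, Subgroup.subset_closure (by simp), rfl⟩, mem_c9⟩
  have hw : ∀ n, ((bitWord n).map permOf).prod ∈ K.map Cfsg.M24.subtype := fun n =>
    Subgroup.list_prod_mem _ fun x hx => by
      obtain ⟨c, hc, rfl⟩ := List.mem_map.1 hx
      exact (hmem c (bitWord_sub n c hc)).1
  rw [← Subgroup.card_map_of_injective Cfsg.M24.subtype_injective (K := K)]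
  obtain ⟨hlen, hinc⟩ := order_ok
  refine le_trans (le_of_eq (hlen ▸ (Nat.card_fin order.length).symm))
    (Nat.card_le_card_of_injective (fun n : Fin order.length => ⟨_, hw (order[n.1])⟩) fun a b hab => ?_)
  have hk : wordKey (bitWord order[a.1]) = wordKey (bitWord order[b.1]) := by
    unfold wordKey
    refine List.foldr_ext _ _ _ fun i hi acc => ?_
    have e := congrArg (fun σ : Equiv.Perm GolayPt => idx (σ (pt i))) (congrArg Subtype.val hab)
    simp only [idx_prod (fun c hc => (hmem c (bitWord_sub _ c hc)).2), idx_pt (List.mem_range.1 hi)] at e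
    rw [e]
  exact inj_of_increasing (f := fun n => wordKey (bitWord n)) hinc a b hk

end Cfsg.Agent.FGS4.M24Schur
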