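import Cfsg.Agent.FGS4.SchurSylow.Lifts

/-! A Sylow 2-subgroup of `M₂₄`, given by ten involutions, splits in every central extension by an
elementary abelian 2-group in which its involutions lift to involutions. -/

set_option autoImplicit false
set_option maxHeartbeats 4000000

namespace Cfsg.Agent.FGS4.M24Schur

open Subgroup
open scoped commutatorElement

universe u v

variable {Γ : Type u} [Group Γ] {Q : Type v} [Group Q]

/-- The elements whose lifts have to be involutions. -/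
def invols (e0 e1 e2 e3 e4 e5 e6 e7 e8 e9 : Q) : List Q :=
  [e0,
    e1,
    e2,
    e3,
    e4,
    e5,
    e6,
    e7,
    e8,
    e9,
    e0 * e4,
    e0 * e5,
    e0 * e6,
    e0 * e8,
    e1 * e2,
    e1 * e4,
    e1 * e5,
    e1 * e6,
    e1 * e7,
    e2 * e5,
    e2 * e6,
    e2 * e7,
    e2 * e8,
    e2 * e9,
    e3 * e7,
    e3 * e8,
    e4 * e5,
    e4 * e6,
    e4 * e8,
    e5 * e6,
    e5 * e7,
    e5 * e8,
    e5 * e9,
    e6 * e7,
    e6 * e8,
    e6 * e9,
    e7 * e8,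
    e7 * e9,
    e8 * e9,
    e0 * e3 * e7,
    e1 * e2 * e3]

theorem stem_false_two [Finite Γ] {σ : Γ →* Q} (hσ : Cfsg.IsStemExtension σ) {e0 e1 e2 e3 e4 e5 e6 e7 e8 e9 : Q}
    (r01 : e0 * e1 * e0 = e1 * e4 * e5)
    (r02 : e0 * e2 * e0 = e5 * e6 * e7 * e9)
    (r03 : e0 * e3 * e0 = e3 * e8)
    (r07 : e0 * e7 * e0 = e7 * e8)
    (r09 : e0 * e9 * e0 = e2 * e5 * e6 * e7 * e8)
    (r13 : e1 * e3 * e1 = e3 * e5 * e6 * e7)
    (r18 : e1 * e8 * e1 = e5 * e6 * e8)
    (r19 : e1 * e9 * e1 = e6 * e9)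
    (r23 : e2 * e3 * e2 = e3 * e5 * e6 * e7)
    (r24 : e2 * e4 * e2 = e4 * e6)
    (r34 : e3 * e4 * e3 = e4 * e5 * e6 * e8)
    (r35 : e3 * e5 * e3 = e6)
    (r36 : e3 * e6 * e3 = e5)
    (r39 : e3 * e9 * e3 = e5 * e6 * e7 * e8 * e9)
    (r47 : e4 * e7 * e4 = e5 * e6 * e7)
    (r49 : e4 * e9 * e4 = e5 * e9)
    (hcard : Nat.card (closure ({e0, e1, e2, e3, e4, e5, e6, e7, e8, e9} : Set Q)) = 1024)
    (S : Sylow 2 Q) (hS : (S : Subgroup Q) = closure {e0, e1, e2, e3, e4, e5, e6, e7, e8, e9})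
    {z : Γ} (hz : z ∈ σ.ker) (hzo : orderOf z = 2) (hker : ∀ w ∈ σ.ker, w * w = 1)
    (hinv : ∀ X : Γ, σ X ∈ invols e0 e1 e2 e3 e4 e5 e6 e7 e8 e9 → X * X = 1) : False := by
  have hc : ∀ w ∈ σ.ker, ∀ y : Γ, y * w = w * y := fun w hw => mem_center_iff.1 (hσ.2.1 hw)
  have memI : ∀ {X : Γ} {q : Q}, σ X = q → q ∈ invols e0 e1 e2 e3 e4 e5 e6 e7 e8 e9 → X * X = 1 := fun h1 h2 => hinv _ (h1 ▸ h2)
  have qq : ∀ {q : Q}, q ∈ invols e0 e1 e2 e3 e4 e5 e6 e7 e8 e9 → q * q = 1 := fun {q} hq => by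
    obtain ⟨X, hX⟩ := hσ.1 q
    rw [← hX, ← map_mul, memI hX hq, map_one]
  have L : ∀ {M : Type u} [Group M] {a b c : M}, a * b = c → ∀ x : M, a * (b * x) = c * x :=
    fun h x => by rw [← mul_assoc, h]
  have LQ : ∀ {a b c : Q}, a * b = c → ∀ x : Q, a * (b * x) = c * x := fun h x => by rw [← mul_assoc, h]
  have flip : ∀ {X Y W : Γ}, X * X = 1 → X * Y * X = W → Y * X = X * W := fun {X Y W} hX h => by
    rw [← h, ← mul_assoc, ← mul_assoc, hX, one_mul]
  have q0 : e0 * e0 = 1 := qq (by simp [invols])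
  have q1 : e1 * e1 = 1 := qq (by simp [invols])
  have q2 : e2 * e2 = 1 := qq (by simp [invols])
  have q3 : e3 * e3 = 1 := qq (by simp [invols])
  have q4 : e4 * e4 = 1 := qq (by simp [invols])
  have q5 : e5 * e5 = 1 := qq (by simp [invols])
  have q6 : e6 * e6 = 1 := qq (by simp [invols])
  have q7 : e7 * e7 = 1 := qq (by simp [invols])
  have q8 : e8 * e8 = 1 := qq (by simp [invols])
  have q9 : e9 * e9 = 1 := qq (by simp [invols])
  obtain ⟨A0, a0⟩ := hσ.1 e0
  have s0 : A0 * A0 = 1 := memI a0 (by simp [invols])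
  obtain ⟨A1, a1⟩ := hσ.1 e1
  have s1 : A1 * A1 = 1 := memI a1 (by simp [invols])
  obtain ⟨A3, a3⟩ := hσ.1 e3
  have s3 : A3 * A3 = 1 := memI a3 (by simp [invols])
  obtain ⟨A9, a9⟩ := hσ.1 e9
  have s9 : A9 * A9 = 1 := memI a9 (by simp [invols])
  obtain ⟨A8, d8⟩ : ∃ A, A = A3 * (A0 * A3 * A0) := ⟨_, rfl⟩
  have a8 : σ A8 = e8 := by
    rw [d8]; simp only [map_mul, a0, a3]
    rw [r03]
    try simp [mul_assoc, q3, LQ q3, q8, LQ q8]
  have s8 : A8 * A8 = 1 := memI a8 (by simp [invols])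
  have m03 : A3 * A0 = A0 * (A3 * (A8)) := flip s0 (by
    simp [d8, mul_assoc, s0, L s0, s3, L s3])
  obtain ⟨A6, d6⟩ : ∃ A, A = (A1 * A9 * A1) * A9 := ⟨_, rfl⟩
  have a6 : σ A6 = e6 := by
    rw [d6]; simp only [map_mul, a1, a9]
    rw [r19]
    try simp [mul_assoc, q6, LQ q6, q9, LQ q9]
  have s6 : A6 * A6 = 1 := memI a6 (by simp [invols])
  have m19 : A9 * A1 = A1 * (A6 * (A9)) := flip s1 (by
    simp [d6, mul_assoc, s1, L s1, s9, L s9])
  obtain ⟨A5, d5⟩ : ∃ A, A = (A3 * A6 * A3) := ⟨_, rfl⟩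
  have a5 : σ A5 = e5 := by
    rw [d5]; simp only [map_mul, a3, a6]
    rw [r36]
    try simp [mul_assoc, q5, LQ q5]
  have s5 : A5 * A5 = 1 := memI a5 (by simp [invols])
  have m36 : A6 * A3 = A3 * (A5) := flip s3 (by
    simp [d5, mul_assoc, s3, L s3])
  obtain ⟨A7, d7⟩ : ∃ A, A = A6 * A5 * (A3 * A9 * A3) * A9 * A8 := ⟨_, rfl⟩
  have a7 : σ A7 = e7 := by
    rw [d7]; simp only [map_mul, a3, a5, a6, a8, a9]
    rw [r39]
    try simp [mul_assoc, q5, LQ q5, q6, LQ q6, q7, LQ q7, q8, LQ q8, q9, LQ q9]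
  have s7 : A7 * A7 = 1 := memI a7 (by simp [invols])
  have m39 : A9 * A3 = A3 * (A5 * (A6 * (A7 * (A8 * (A9))))) := flip s3 (by
    simp [d7, mul_assoc, s3, L s3, s5, L s5, s6, L s6, s8, L s8, s9, L s9])
  obtain ⟨A4, d4⟩ : ∃ A, A = A1 * (A0 * A1 * A0) * A5 := ⟨_, rfl⟩
  have a4 : σ A4 = e4 := by
    rw [d4]; simp only [map_mul, a0, a1, a5]
    rw [r01]
    try simp [mul_assoc, q1, LQ q1, q4, LQ q4, q5, LQ q5]
  have s4 : A4 * A4 = 1 := memI a4 (by simp [invols])
  have m01 : A1 * A0 = A0 * (A1 * (A4 * (A5))) := flip s0 (by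
    simp [d4, mul_assoc, s0, L s0, s1, L s1, s5, L s5])
  obtain ⟨A2, d2⟩ : ∃ A, A = (A0 * A9 * A0) * A8 * A7 * A6 * A5 := ⟨_, rfl⟩
  have a2 : σ A2 = e2 := by
    rw [d2]; simp only [map_mul, a0, a5, a6, a7, a8, a9]
    rw [r09]
    try simp [mul_assoc, q2, LQ q2, q5, LQ q5, q6, LQ q6, q7, LQ q7, q8, LQ q8]
  have s2 : A2 * A2 = 1 := memI a2 (by simp [invols])
  have m09 : A9 * A0 = A0 * (A2 * (A5 * (A6 * (A7 * (A8))))) := flip s0 (by
    simp [d2, mul_assoc, s0, L s0, s5, L s5, s6, L s6, s7, L s7, s8, L s8])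
  have c04 : A4 * A0 = A0 * A4 :=
    Cfsg.Agent.FGS4.SchurSylow.commute_of_sq s0 s4 (hinv _ (by rw [map_mul, a0, a4]; simp [invols]))
  have c05 : A5 * A0 = A0 * A5 :=
    Cfsg.Agent.FGS4.SchurSylow.commute_of_sq s0 s5 (hinv _ (by rw [map_mul, a0, a5]; simp [invols]))
  have c06 : A6 * A0 = A0 * A6 :=
    Cfsg.Agent.FGS4.SchurSylow.commute_of_sq s0 s6 (hinv _ (by rw [map_mul, a0, a6]; simp [invols]))
  have c08 : A8 * A0 = A0 * A8 :=
    Cfsg.Agent.FGS4.SchurSylow.commute_of_sq s0 s8 (hinv _ (by rw [map_mul, a0, a8]; simp [invols]))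
  have c12 : A2 * A1 = A1 * A2 :=
    Cfsg.Agent.FGS4.SchurSylow.commute_of_sq s1 s2 (hinv _ (by rw [map_mul, a1, a2]; simp [invols]))
  have c14 : A4 * A1 = A1 * A4 :=
    Cfsg.Agent.FGS4.SchurSylow.commute_of_sq s1 s4 (hinv _ (by rw [map_mul, a1, a4]; simp [invols]))
  have c15 : A5 * A1 = A1 * A5 :=
    Cfsg.Agent.FGS4.SchurSylow.commute_of_sq s1 s5 (hinv _ (by rw [map_mul, a1, a5]; simp [invols]))
  have c16 : A6 * A1 = A1 * A6 :=
    Cfsg.Agent.FGS4.SchurSylow.commute_of_sq s1 s6 (hinv _ (by rw [map_mul, a1, a6]; simp [invols]))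
  have c17 : A7 * A1 = A1 * A7 :=
    Cfsg.Agent.FGS4.SchurSylow.commute_of_sq s1 s7 (hinv _ (by rw [map_mul, a1, a7]; simp [invols]))
  have c25 : A5 * A2 = A2 * A5 :=
    Cfsg.Agent.FGS4.SchurSylow.commute_of_sq s2 s5 (hinv _ (by rw [map_mul, a2, a5]; simp [invols]))
  have c26 : A6 * A2 = A2 * A6 :=
    Cfsg.Agent.FGS4.SchurSylow.commute_of_sq s2 s6 (hinv _ (by rw [map_mul, a2, a6]; simp [invols]))
  have c27 : A7 * A2 = A2 * A7 :=
    Cfsg.Agent.FGS4.SchurSylow.commute_of_sq s2 s7 (hinv _ (by rw [map_mul, a2, a7]; simp [invols]))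
  have c28 : A8 * A2 = A2 * A8 :=
    Cfsg.Agent.FGS4.SchurSylow.commute_of_sq s2 s8 (hinv _ (by rw [map_mul, a2, a8]; simp [invols]))
  have c29 : A9 * A2 = A2 * A9 :=
    Cfsg.Agent.FGS4.SchurSylow.commute_of_sq s2 s9 (hinv _ (by rw [map_mul, a2, a9]; simp [invols]))
  have c37 : A7 * A3 = A3 * A7 :=
    Cfsg.Agent.FGS4.SchurSylow.commute_of_sq s3 s7 (hinv _ (by rw [map_mul, a3, a7]; simp [invols]))
  have c38 : A8 * A3 = A3 * A8 :=
    Cfsg.Agent.FGS4.SchurSylow.commute_of_sq s3 s8 (hinv _ (by rw [map_mul, a3, a8]; simp [invols]))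
  have c45 : A5 * A4 = A4 * A5 :=
    Cfsg.Agent.FGS4.SchurSylow.commute_of_sq s4 s5 (hinv _ (by rw [map_mul, a4, a5]; simp [invols]))
  have c46 : A6 * A4 = A4 * A6 :=
    Cfsg.Agent.FGS4.SchurSylow.commute_of_sq s4 s6 (hinv _ (by rw [map_mul, a4, a6]; simp [invols]))
  have c48 : A8 * A4 = A4 * A8 :=
    Cfsg.Agent.FGS4.SchurSylow.commute_of_sq s4 s8 (hinv _ (by rw [map_mul, a4, a8]; simp [invols]))
  have c56 : A6 * A5 = A5 * A6 :=
    Cfsg.Agent.FGS4.SchurSylow.commute_of_sq s5 s6 (hinv _ (by rw [map_mul, a5, a6]; simp [invols]))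
  have c57 : A7 * A5 = A5 * A7 :=
    Cfsg.Agent.FGS4.SchurSylow.commute_of_sq s5 s7 (hinv _ (by rw [map_mul, a5, a7]; simp [invols]))
  have c58 : A8 * A5 = A5 * A8 :=
    Cfsg.Agent.FGS4.SchurSylow.commute_of_sq s5 s8 (hinv _ (by rw [map_mul, a5, a8]; simp [invols]))
  have c59 : A9 * A5 = A5 * A9 :=
    Cfsg.Agent.FGS4.SchurSylow.commute_of_sq s5 s9 (hinv _ (by rw [map_mul, a5, a9]; simp [invols]))
  have c67 : A7 * A6 = A6 * A7 :=
    Cfsg.Agent.FGS4.SchurSylow.commute_of_sq s6 s7 (hinv _ (by rw [map_mul, a6, a7]; simp [invols]))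
  have c68 : A8 * A6 = A6 * A8 :=
    Cfsg.Agent.FGS4.SchurSylow.commute_of_sq s6 s8 (hinv _ (by rw [map_mul, a6, a8]; simp [invols]))
  have c69 : A9 * A6 = A6 * A9 :=
    Cfsg.Agent.FGS4.SchurSylow.commute_of_sq s6 s9 (hinv _ (by rw [map_mul, a6, a9]; simp [invols]))
  have c78 : A8 * A7 = A7 * A8 :=
    Cfsg.Agent.FGS4.SchurSylow.commute_of_sq s7 s8 (hinv _ (by rw [map_mul, a7, a8]; simp [invols]))
  have c79 : A9 * A7 = A7 * A9 :=
    Cfsg.Agent.FGS4.SchurSylow.commute_of_sq s7 s9 (hinv _ (by rw [map_mul, a7, a9]; simp [invols]))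
  have c89 : A9 * A8 = A8 * A9 :=
    Cfsg.Agent.FGS4.SchurSylow.commute_of_sq s8 s9 (hinv _ (by rw [map_mul, a8, a9]; simp [invols]))
  obtain ⟨w02, hw02, m02⟩ : ∃ w ∈ σ.ker, A2 * A0 = w * (A0 * (A5 * (A6 * (A7 * (A9))))) := by
    refine ⟨A2 * A0 * (A0 * (A5 * (A6 * (A7 * (A9)))))⁻¹, ?_, (inv_mul_cancel_right _ _).symm⟩
    rw [MonoidHom.mem_ker]
    simp only [map_mul, map_inv, a0, a2, a5, a6, a7, a9]
    rw [mul_inv_eq_one]
    calc e2 * e0 = e0 * (e0 * e2 * e0) := by simp [← mul_assoc, q0]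
      _ = _ := by rw [r02]; try simp [mul_assoc]
  obtain ⟨w07, hw07, m07⟩ : ∃ w ∈ σ.ker, A7 * A0 = w * (A0 * (A7 * (A8))) := by
    refine ⟨A7 * A0 * (A0 * (A7 * (A8)))⁻¹, ?_, (inv_mul_cancel_right _ _).symm⟩
    rw [MonoidHom.mem_ker]
    simp only [map_mul, map_inv, a0, a7, a8]
    rw [mul_inv_eq_one]
    calc e7 * e0 = e0 * (e0 * e7 * e0) := by simp [← mul_assoc, q0]
      _ = _ := by rw [r07]; try simp [mul_assoc]
  obtain ⟨w13, hw13, m13⟩ : ∃ w ∈ σ.ker, A3 * A1 = w * (A1 * (A3 * (A5 * (A6 * (A7))))) := by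
    refine ⟨A3 * A1 * (A1 * (A3 * (A5 * (A6 * (A7)))))⁻¹, ?_, (inv_mul_cancel_right _ _).symm⟩
    rw [MonoidHom.mem_ker]
    simp only [map_mul, map_inv, a1, a3, a5, a6, a7]
    rw [mul_inv_eq_one]
    calc e3 * e1 = e1 * (e1 * e3 * e1) := by simp [← mul_assoc, q1]
      _ = _ := by rw [r13]; try simp [mul_assoc]
  obtain ⟨w18, hw18, m18⟩ : ∃ w ∈ σ.ker, A8 * A1 = w * (A1 * (A5 * (A6 * (A8)))) := by
    refine ⟨A8 * A1 * (A1 * (A5 * (A6 * (A8))))⁻¹, ?_, (inv_mul_cancel_right _ _).symm⟩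
    rw [MonoidHom.mem_ker]
    simp only [map_mul, map_inv, a1, a5, a6, a8]
    rw [mul_inv_eq_one]
    calc e8 * e1 = e1 * (e1 * e8 * e1) := by simp [← mul_assoc, q1]
      _ = _ := by rw [r18]; try simp [mul_assoc]
  obtain ⟨w23, hw23, m23⟩ : ∃ w ∈ σ.ker, A3 * A2 = w * (A2 * (A3 * (A5 * (A6 * (A7))))) := by
    refine ⟨A3 * A2 * (A2 * (A3 * (A5 * (A6 * (A7)))))⁻¹, ?_, (inv_mul_cancel_right _ _).symm⟩
    rw [MonoidHom.mem_ker]
    simp only [map_mul, map_inv, a2, a3, a5, a6, a7]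
    rw [mul_inv_eq_one]
    calc e3 * e2 = e2 * (e2 * e3 * e2) := by simp [← mul_assoc, q2]
      _ = _ := by rw [r23]; try simp [mul_assoc]
  obtain ⟨w24, hw24, m24⟩ : ∃ w ∈ σ.ker, A4 * A2 = w * (A2 * (A4 * (A6))) := by
    refine ⟨A4 * A2 * (A2 * (A4 * (A6)))⁻¹, ?_, (inv_mul_cancel_right _ _).symm⟩
    rw [MonoidHom.mem_ker]
    simp only [map_mul, map_inv, a2, a4, a6]
    rw [mul_inv_eq_one]
    calc e4 * e2 = e2 * (e2 * e4 * e2) := by simp [← mul_assoc, q2]
      _ = _ := by rw [r24]; try simp [mul_assoc]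
  obtain ⟨w34, hw34, m34⟩ : ∃ w ∈ σ.ker, A4 * A3 = w * (A3 * (A4 * (A5 * (A6 * (A8))))) := by
    refine ⟨A4 * A3 * (A3 * (A4 * (A5 * (A6 * (A8)))))⁻¹, ?_, (inv_mul_cancel_right _ _).symm⟩
    rw [MonoidHom.mem_ker]
    simp only [map_mul, map_inv, a3, a4, a5, a6, a8]
    rw [mul_inv_eq_one]
    calc e4 * e3 = e3 * (e3 * e4 * e3) := by simp [← mul_assoc, q3]
      _ = _ := by rw [r34]; try simp [mul_assoc]
  obtain ⟨w35, hw35, m35⟩ : ∃ w ∈ σ.ker, A5 * A3 = w * (A3 * (A6)) := by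
    refine ⟨A5 * A3 * (A3 * (A6))⁻¹, ?_, (inv_mul_cancel_right _ _).symm⟩
    rw [MonoidHom.mem_ker]
    simp only [map_mul, map_inv, a3, a5, a6]
    rw [mul_inv_eq_one]
    calc e5 * e3 = e3 * (e3 * e5 * e3) := by simp [← mul_assoc, q3]
      _ = _ := by rw [r35]; try simp [mul_assoc]
  obtain ⟨w47, hw47, m47⟩ : ∃ w ∈ σ.ker, A7 * A4 = w * (A4 * (A5 * (A6 * (A7)))) := by
    refine ⟨A7 * A4 * (A4 * (A5 * (A6 * (A7))))⁻¹, ?_, (inv_mul_cancel_right _ _).symm⟩
    rw [MonoidHom.mem_ker]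
    simp only [map_mul, map_inv, a4, a5, a6, a7]
    rw [mul_inv_eq_one]
    calc e7 * e4 = e4 * (e4 * e7 * e4) := by simp [← mul_assoc, q4]
      _ = _ := by rw [r47]; try simp [mul_assoc]
  obtain ⟨w49, hw49, m49⟩ : ∃ w ∈ σ.ker, A9 * A4 = w * (A4 * (A5 * (A9))) := by
    refine ⟨A9 * A4 * (A4 * (A5 * (A9)))⁻¹, ?_, (inv_mul_cancel_right _ _).symm⟩
    rw [MonoidHom.mem_ker]
    simp only [map_mul, map_inv, a4, a5, a9]
    rw [mul_inv_eq_one]
    calc e9 * e4 = e4 * (e4 * e9 * e4) := by simp [← mul_assoc, q4]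
      _ = _ := by rw [r49]; try simp [mul_assoc]
  have pull : ∀ {w : Γ}, w ∈ σ.ker → ∀ (a x : Γ), a * (w * x) = w * (a * x) := fun {w} hw a x => by
    rw [← mul_assoc, hc w hw a, mul_assoc]
  have h35 : w35 = 1 := by
    have key : A5 * A3 * A3 = A5 := by rw [mul_assoc, s3, mul_one]
    rw [m35] at key
    simp only [mul_assoc, s0, s1, s2, s3, s4, s5, s6, s7, s8, s9, L s0, L s1, L s2, L s3, L s4, L s5, L s6, L s7, L s8, L s9, c04, L c04, c05, L c05, c06, L c06, c08, L c08, c12, L c12, c14, L c14, c15, L c15, c16, L c16, c17, L c17, c25, L c25, c26, L c26, c27, L c27, c28, L c28, c29, L c29, c37, L c37, c38, L c38, c45, L c45, c46, L c46, c48, L c48, c56, L c56, c57, L c57, c58, L c58, c59, L c59, c67, L c67, c68, L c68, c69, L c69, c78, L c78, c79, L c79, c89, L c89, m01, m03, m09, m19, m36, m39, m35, L m01, L m03, L m09, L m19, L m36, L m39, L m35, pull hw35 A0, pull hw35 A1, pull hw35 A2, pull hw35 A3, pull hw35 A4, pull hw35 A5, pull hw35 A6,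 pull hw35 A7, pull hw35 A8, pull hw35 A9, hc w35 hw35 A0, hc w35 hw35 A1, hc w35 hw35 A2, hc w35 hw35 A3, hc w35 hw35 A4, hc w35 hw35 A5, hc w35 hw35 A6, hc w35 hw35 A7, hc w35 hw35 A8, hc w35 hw35 A9, hker w35 hw35, mul_one, one_mul] at key
    simpa using key
  subst h35
  simp only [one_mul] at m35
  have h07 : w07 = 1 := by
    have key := memI (X := A0 * A3 * A7) (q := e0 * e3 * e7) (by simp only [map_mul, a0, a3, a7]) (by simp [invols])
    simp only [mul_assoc, s0, s1, s2, s3, s4, s5, s6, s7, s8, s9, L s0, L s1, L s2, L s3, L s4, L s5, L s6, L s7, L s8, L s9, c04, L c04, c05, L c05, c06, L c06, c08, L c08, c12, L c12, c14, L c14, c15, L c15, c16, L c16, c17, L c17, c25, L c25, c26, L c26, c27, L c27, c28, L c28, c29, L c29, c37, L c37, c38, L c38, c45, L c45, c46, L c46, c48, L c48, c56, L c56, c57, L c57, c58, L c58, c59, L c59, c67, L c67, c68, L c68, c69, L c69, c78, L c78, c79, L c79, c89, L c89, m01, m03, m09, m19, m35, m36, m39, m07, L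 m01, L m03, L m09, L m19, L m35, L m36, L m39, L m07, pull hw07 A0, pull hw07 A1, pull hw07 A2, pull hw07 A3, pull hw07 A4, pull hw07 A5, pull hw07 A6, pull hw07 A7, pull hw07 A8, pull hw07 A9, hc w07 hw07 A0, hc w07 hw07 A1, hc w07 hw07 A2, hc w07 hw07 A3, hc w07 hw07 A4, hc w07 hw07 A5, hc w07 hw07 A6, hc w07 hw07 A7, hc w07 hw07 A8, hc w07 hw07 A9, hker w07 hw07, mul_one, one_mul] at key
    simpa using key
  subst h07
  simp only [one_mul] at m07
  have h02 : w02 = 1 := by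
    have key : A2 * A0 * A0 = A2 := by rw [mul_assoc, s0, mul_one]
    rw [m02] at key
    simp only [mul_assoc, s0, s1, s2, s3, s4, s5, s6, s7, s8, s9, L s0, L s1, L s2, L s3, L s4, L s5, L s6, L s7, L s8, L s9, c04, L c04, c05, L c05, c06, L c06, c08, L c08, c12, L c12, c14, L c14, c15, L c15, c16, L c16, c17, L c17, c25, L c25, c26, L c26, c27, L c27, c28, L c28, c29, L c29, c37, L c37, c38, L c38, c45, L c45, c46, L c46, c48, L c48, c56, L c56, c57, L c57, c58, L c58, c59, L c59, c67, L c67, c68, L c68, c69, L c69, c78, L c78, c79, L c79, c89, L c89, m01, m03, m07, m09, m19, m35, m36, m39, m02, L m01, L m03, L m07, L m09, L m19, L m35, L m36, L m39, L m02, pull hw02 A0, pull hw02 A1, pull hw02 A2, pull hw02 A3, pull hw02 A4, pull hw02 A5, pull hw02 A6, pull hw02 A7, pull hw02 A8, pull hw02 A9, hc w02 hw02 A0, hc w02 hw02 A1, hc w02 hw02 A2, hc w02 hw02 A3, hc w02 hw02 A4, hc w02 hw02 A5, hc w02 hw02 A6, hc w02 hw02 A7, hc w02 hw02 A8, hc w02 hw02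 A9, hker w02 hw02, mul_one, one_mul] at key
    simpa using key
  subst h02
  simp only [one_mul] at m02
  have h23 : w23 = 1 := by
    have key : A3 * A2 * A0 = A3 * (A2 * A0) := mul_assoc _ _ _
    rw [m23, m02] at key
    simp only [mul_assoc, s0, s1, s2, s3, s4, s5, s6, s7, s8, s9, L s0, L s1, L s2, L s3, L s4, L s5, L s6, L s7, L s8, L s9, c04, L c04, c05, L c05, c06, L c06, c08, L c08, c12, L c12, c14, L c14, c15, L c15, c16, L c16, c17, L c17, c25, L c25, c26, L c26, c27, L c27, c28, L c28, c29, L c29, c37, L c37, c38, L c38, c45, L c45, c46, L c46, c48, L c48, c56, L c56, c57, L c57, c58, L c58, c59, L c59, c67, L c67, c68, L c68, c69, L c69, c78, L c78, c79, L c79, c89, L c89, m01, m02, m03, m07, m09, m19, m35, m36, m39, m23, L m01, L m02, L m03, L m07, L m09, L m19, L m35, L m36, L m39, L m23, pull hw23 A0, pull hw23 A1, pull hw23 A2, pull hw23 A3, pull hw23 A4, pull hw23 A5, pull hw23 A6, pull hw23 A7, pull hw23 A8, pull hw23 A9, hc w23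 hw23 A0, hc w23 hw23 A1, hc w23 hw23 A2, hc w23 hw23 A3, hc w23 hw23 A4, hc w23 hw23 A5, hc w23 hw23 A6, hc w23 hw23 A7, hc w23 hw23 A8, hc w23 hw23 A9, hker w23 hw23, mul_one, one_mul] at key
    simpa using key
  subst h23
  simp only [one_mul] at m23
  have h13 : w13 = 1 := by
    have key := memI (X := A1 * A2 * A3) (q := e1 * e2 * e3) (by simp only [map_mul, a1, a2, a3]) (by simp [invols])
    simp only [mul_assoc, s0, s1, s2, s3, s4, s5, s6, s7, s8, s9, L s0, L s1, L s2, L s3, L s4, L s5, L s6, L s7, L s8, L s9, c04, L c04, c05, L c05, c06, L c06, c08, L c08, c12, L c12, c14, L c14, c15, L c15, c16, L c16, c17, L c17, c25, L c25, c26, L c26, c27, L c27, c28, L c28, c29, L c29, c37, L c37, c38, L c38, c45, L c45, c46, L c46, c48, L c48, c56, L c56, c57, L c57, c58, L c58, c59, L c59, c67, L c67, c68, L c68, c69, L c69, c78, L c78, c79, L c79, c89, L c89, m01, m02, m03, m07, m09, m19, m23, m35, m36, m39, m13, L m01, L m02, L m03, L m07, L m09,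 L m19, L m23, L m35, L m36, L m39, L m13, pull hw13 A0, pull hw13 A1, pull hw13 A2, pull hw13 A3, pull hw13 A4, pull hw13 A5, pull hw13 A6, pull hw13 A7, pull hw13 A8, pull hw13 A9, hc w13 hw13 A0, hc w13 hw13 A1, hc w13 hw13 A2, hc w13 hw13 A3, hc w13 hw13 A4, hc w13 hw13 A5, hc w13 hw13 A6, hc w13 hw13 A7, hc w13 hw13 A8, hc w13 hw13 A9, hker w13 hw13, mul_one, one_mul] at key
    simpa using key
  subst h13
  simp only [one_mul] at m13
  have h18 : w18 = 1 := by
    have key : A9 * A3 * A1 = A9 * (A3 * A1) := mul_assoc _ _ _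
    rw [m39, m13] at key
    simp only [mul_assoc, s0, s1, s2, s3, s4, s5, s6, s7, s8, s9, L s0, L s1, L s2, L s3, L s4, L s5, L s6, L s7, L s8, L s9, c04, L c04, c05, L c05, c06, L c06, c08, L c08, c12, L c12, c14, L c14, c15, L c15, c16, L c16, c17, L c17, c25, L c25, c26, L c26, c27, L c27, c28, L c28, c29, L c29, c37, L c37, c38, L c38, c45, L c45, c46, L c46, c48, L c48, c56, L c56, c57, L c57, c58, L c58, c59, L c59, c67, L c67, c68, L c68, c69, L c69, c78, L c78, c79, L c79, c89, L c89, m01, m02, m03, m07, m09, m13, m19, m23, m35, m36, m39, m18, L m01, L m02, L m03, L m07, L m09, L m13, L m19, L m23, L m35, L m36, L m39, L m18, pull hw18 A0, pull hw18 A1, pull hw18 A2, pull hw18 A3, pull hw18 A4, pull hw18 A5, pull hw18 A6, pull hw18 A7, pull hw18 A8, pull hw18 A9, hc w18 hw18 A0, hc w18 hw18 A1, hc w18 hw18 A2, hc w18 hw18 A3, hc w18 hw18 A4, hc w18 hw18 A5, hc w18 hw18 A6, hc w18 hw18 A7, hc w18 hw18 A8, hc w18 hw18 A9, hker w18 hw18, mul_one,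 one_mul] at key
    simpa using key
  subst h18
  simp only [one_mul] at m18
  have h47 : w47 = 1 := by
    have key : A7 * A1 * A0 = A7 * (A1 * A0) := mul_assoc _ _ _
    rw [c17, m01] at key
    simp only [mul_assoc, s0, s1, s2, s3, s4, s5, s6, s7, s8, s9, L s0, L s1, L s2, L s3, L s4, L s5, L s6, L s7, L s8, L s9, c04, L c04, c05, L c05, c06, L c06, c08, L c08, c12, L c12, c14, L c14, c15, L c15, c16, L c16, c17, L c17, c25, L c25, c26, L c26, c27, L c27, c28, L c28, c29, L c29, c37, L c37, c38, L c38, c45, L c45, c46, L c46, c48, L c48, c56, L c56, c57, L c57, c58, L c58, c59, L c59, c67, L c67, c68, L c68, c69, L c69, c78, L c78, c79, L c79, c89, L c89, m01, m02, m03, m07, m09, m13, m18, m19, m23, m35, m36, m39, m47, L m01, L m02, L m03, L m07, L m09, L m13, L m18, L m19, L m23, L m35, L m36, L m39, L m47, pull hw47 A0, pull hw47 A1, pull hw47 A2, pull hw47 A3, pull hw47 A4, pull hw47 A5, pull hw47 A6, pull hw47 A7, pull hw47 A8, pull hw47 A9,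 hc w47 hw47 A0, hc w47 hw47 A1, hc w47 hw47 A2, hc w47 hw47 A3, hc w47 hw47 A4, hc w47 hw47 A5, hc w47 hw47 A6, hc w47 hw47 A7, hc w47 hw47 A8, hc w47 hw47 A9, hker w47 hw47, mul_one, one_mul] at key
    simpa using key
  subst h47
  simp only [one_mul] at m47
  have h49 : w49 = 1 := by
    have key : A2 * A1 * A0 = A2 * (A1 * A0) := mul_assoc _ _ _
    rw [c12, m01] at key
    simp only [mul_assoc, s0, s1, s2, s3, s4, s5, s6, s7, s8, s9, L s0, L s1, L s2, L s3, L s4, L s5, L s6, L s7, L s8, L s9, c04, L c04, c05, L c05, c06, L c06, c08, L c08, c12, L c12, c14, L c14, c15, L c15, c16, L c16, c17, L c17, c25, L c25, c26, L c26, c27, L c27, c28, L c28, c29, L c29, c37, L c37, c38, L c38, c45, L c45, c46, L c46, c48, L c48, c56, L c56, c57, L c57, c58, L c58, c59, L c59, c67, L c67, c68, L c68, c69, L c69, c78, L c78, c79, L c79, c89, L c89, m01, m02, m03, m07, m09, m13, m18, m19, m23, m35, m36, m39, m47, m49, L m01, L m02, L m03, L m07, L m09, L m13,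 L m18, L m19, L m23, L m35, L m36, L m39, L m47, L m49, pull hw49 A0, pull hw49 A1, pull hw49 A2, pull hw49 A3, pull hw49 A4, pull hw49 A5, pull hw49 A6, pull hw49 A7, pull hw49 A8, pull hw49 A9, hc w49 hw49 A0, hc w49 hw49 A1, hc w49 hw49 A2, hc w49 hw49 A3, hc w49 hw49 A4, hc w49 hw49 A5, hc w49 hw49 A6, hc w49 hw49 A7, hc w49 hw49 A8, hc w49 hw49 A9, hker w49 hw49, mul_one, one_mul] at key
    simpa using key
  subst h49
  simp only [one_mul] at m49
  have h34 : w34 = 1 := by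
    have key : A3 * A1 * A0 = A3 * (A1 * A0) := mul_assoc _ _ _
    rw [m13, m01] at key
    simp only [mul_assoc, s0, s1, s2, s3, s4, s5, s6, s7, s8, s9, L s0, L s1, L s2, L s3, L s4, L s5, L s6, L s7, L s8, L s9, c04, L c04, c05, L c05, c06, L c06, c08, L c08, c12, L c12, c14, L c14, c15, L c15, c16, L c16, c17, L c17, c25, L c25, c26, L c26, c27, L c27, c28, L c28, c29, L c29, c37, L c37, c38, L c38, c45, L c45, c46, L c46, c48, L c48, c56, L c56, c57, L c57, c58, L c58, c59, L c59, c67, L c67, c68, L c68, c69, L c69, c78, L c78, c79, L c79, c89, L c89, m01, m02, m03, m07, m09, m13, m18, m19, m23, m35, m36, m39, m47, m49, m34, L m01, L m02, L m03, L m07, L m09, L m13, L m18, L m19, L m23, L m35, L m36, L m39, L m47, L m49, L m34, pull hw34 A0, pull hw34 A1, pull hw34 A2, pull hw34 A3, pull hw34 A4, pull hw34 A5, pull hw34 A6, pull hw34 A7, pull hw34 A8, pull hw34 A9, hc w34 hw34 A0, hc w34 hw34 A1, hc w34 hw34 A2, hc w34 hw34 A3, hc w34 hw34 A4,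 hc w34 hw34 A5, hc w34 hw34 A6, hc w34 hw34 A7, hc w34 hw34 A8, hc w34 hw34 A9, hker w34 hw34, mul_one, one_mul] at key
    simpa using key
  subst h34
  simp only [one_mul] at m34
  have h24 : w24 = 1 := by
    have key : A9 * A1 * A0 = A9 * (A1 * A0) := mul_assoc _ _ _
    rw [m19, m01] at key
    simp only [mul_assoc, s0, s1, s2, s3, s4, s5, s6, s7, s8, s9, L s0, L s1, L s2, L s3, L s4, L s5, L s6, L s7, L s8, L s9, c04, L c04, c05, L c05, c06, L c06, c08, L c08, c12, L c12, c14, L c14, c15, L c15, c16, L c16, c17, L c17, c25, L c25, c26, L c26, c27, L c27, c28, L c28, c29, L c29, c37, L c37, c38, L c38, c45, L c45, c46, L c46, c48, L c48, c56, L c56, c57, L c57, c58, L c58, c59, L c59, c67, L c67, c68, L c68, c69, L c69, c78, L c78, c79, L c79, c89, L c89, m01, m02, m03, m07, m09, m13, m18, m19, m23, m34, m35, m36, m39, m47, m49, m24, L m01, L m02, L m03, L m07, L m09, L m13, L m18, L m19, L m23, L m34, L m35, L m36, L m39, L m47, L m49, L m24,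 pull hw24 A0, pull hw24 A1, pull hw24 A2, pull hw24 A3, pull hw24 A4, pull hw24 A5, pull hw24 A6, pull hw24 A7, pull hw24 A8, pull hw24 A9, hc w24 hw24 A0, hc w24 hw24 A1, hc w24 hw24 A2, hc w24 hw24 A3, hc w24 hw24 A4, hc w24 hw24 A5, hc w24 hw24 A6, hc w24 hw24 A7, hc w24 hw24 A8, hc w24 hw24 A9, hker w24 hw24, mul_one, one_mul] at key
    simpa using key
  subst h24
  simp only [one_mul] at m24
  refine Cfsg.Agent.FGS4.SchurSylow.stem_false hσ S hz hzo fun t htk ht => ?_
  set T := closure ({A0, A1, A2, A3, A4, A5, A6, A7, A8, A9} : Set Γ) with hT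
  have conj_eq : ∀ {X Y W : Γ}, X * X = 1 → Y * X = X * W → X * Y * X = W := fun {X Y W} hX h => by
    rw [mul_assoc, h, ← mul_assoc, hX, one_mul]
  have hcard' : Nat.card T ≤ 1024 := by
    have b9 : Nat.card (closure ({A9} : Set Γ)) ≤ 2 := by
      have := Cfsg.Agent.FGS4.SchurSylow.card_closure_insert_le (s := (∅ : Set Γ)) s9 (fun x hx => hx.elim)
      rwa [insert_empty_eq, Subgroup.closure_empty, Subgroup.card_bot, mul_one] at this
    have b8 := Cfsg.Agent.FGS4.SchurSylow.card_closure_insert_le (s := ({A9} : Set Γ)) s8 (fun x hx => by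
      simp only [Set.mem_insert_iff, Set.mem_singleton_iff] at hx
      rcases hx with rfl
      · rw [conj_eq s8 c89]; exact (subset_closure (by simp)))
    have b7 := Cfsg.Agent.FGS4.SchurSylow.card_closure_insert_le (s := ({A8, A9} : Set Γ)) s7 (fun x hx => by
      simp only [Set.mem_insert_iff, Set.mem_singleton_iff] at hx
      rcases hx with rfl | rfl
      · rw [conj_eq s7 c78]; exact (subset_closure (by simp))
      · rw [conj_eq s7 c79]; exact (subset_closure (by simp)))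
    have b6 := Cfsg.Agent.FGS4.SchurSylow.card_closure_insert_le (s := ({A7, A8, A9} : Set Γ)) s6 (fun x hx => by
      simp only [Set.mem_insert_iff, Set.mem_singleton_iff] at hx
      rcases hx with rfl | rfl | rfl
      · rw [conj_eq s6 c67]; exact (subset_closure (by simp))
      · rw [conj_eq s6 c68]; exact (subset_closure (by simp))
      · rw [conj_eq s6 c69]; exact (subset_closure (by simp)))
    have b5 := Cfsg.Agent.FGS4.SchurSylow.card_closure_insert_le (s := ({A6, A7, A8, A9} : Set Γ)) s5 (fun x hx => by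
      simp only [Set.mem_insert_iff, Set.mem_singleton_iff] at hx
      rcases hx with rfl | rfl | rfl | rfl
      · rw [conj_eq s5 c56]; exact (subset_closure (by simp))
      · rw [conj_eq s5 c57]; exact (subset_closure (by simp))
      · rw [conj_eq s5 c58]; exact (subset_closure (by simp))
      · rw [conj_eq s5 c59]; exact (subset_closure (by simp)))
    have b4 := Cfsg.Agent.FGS4.SchurSylow.card_closure_insert_le (s := ({A5, A6, A7, A8, A9} : Set Γ)) s4 (fun x hx => by
      simp only [Set.mem_insert_iff, Set.mem_singleton_iff] at hx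
      rcases hx with rfl | rfl | rfl | rfl | rfl
      · rw [conj_eq s4 c45]; exact (subset_closure (by simp))
      · rw [conj_eq s4 c46]; exact (subset_closure (by simp))
      · rw [conj_eq s4 m47]; exact (mul_mem (subset_closure (by simp)) (mul_mem (subset_closure (by simp)) (subset_closure (by simp))))
      · rw [conj_eq s4 c48]; exact (subset_closure (by simp))
      · rw [conj_eq s4 m49]; exact (mul_mem (subset_closure (by simp)) (subset_closure (by simp))))
    have b3 := Cfsg.Agent.FGS4.SchurSylow.card_closure_insert_le (s := ({A4, A5, A6, A7, A8, A9} : Set Γ)) s3 (fun x hx => by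
      simp only [Set.mem_insert_iff, Set.mem_singleton_iff] at hx
      rcases hx with rfl | rfl | rfl | rfl | rfl | rfl
      · rw [conj_eq s3 m34]; exact (mul_mem (subset_closure (by simp)) (mul_mem (subset_closure (by simp)) (mul_mem (subset_closure (by simp)) (subset_closure (by simp)))))
      · rw [conj_eq s3 m35]; exact (subset_closure (by simp))
      · rw [conj_eq s3 m36]; exact (subset_closure (by simp))
      · rw [conj_eq s3 c37]; exact (subset_closure (by simp))
      · rw [conj_eq s3 c38]; exact (subset_closure (by simp))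
      · rw [conj_eq s3 m39]; exact (mul_mem (subset_closure (by simp)) (mul_mem (subset_closure (by simp)) (mul_mem (subset_closure (by simp)) (mul_mem (subset_closure (by simp)) (subset_closure (by simp)))))))
    have b2 := Cfsg.Agent.FGS4.SchurSylow.card_closure_insert_le (s := ({A3, A4, A5, A6, A7, A8, A9} : Set Γ)) s2 (fun x hx => by
      simp only [Set.mem_insert_iff, Set.mem_singleton_iff] at hx
      rcases hx with rfl | rfl | rfl | rfl | rfl | rfl | rfl
      · rw [conj_eq s2 m23]; exact (mul_mem (subset_closure (by simp)) (mul_mem (subset_closure (by simp)) (mul_mem (subset_closure (by simp)) (subset_closure (by simp)))))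
      · rw [conj_eq s2 m24]; exact (mul_mem (subset_closure (by simp)) (subset_closure (by simp)))
      · rw [conj_eq s2 c25]; exact (subset_closure (by simp))
      · rw [conj_eq s2 c26]; exact (subset_closure (by simp))
      · rw [conj_eq s2 c27]; exact (subset_closure (by simp))
      · rw [conj_eq s2 c28]; exact (subset_closure (by simp))
      · rw [conj_eq s2 c29]; exact (subset_closure (by simp)))
    have b1 := Cfsg.Agent.FGS4.SchurSylow.card_closure_insert_le (s := ({A2, A3, A4, A5, A6, A7, A8, A9} : Set Γ)) s1 (fun x hx => by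
      simp only [Set.mem_insert_iff, Set.mem_singleton_iff] at hx
      rcases hx with rfl | rfl | rfl | rfl | rfl | rfl | rfl | rfl
      · rw [conj_eq s1 c12]; exact (subset_closure (by simp))
      · rw [conj_eq s1 m13]; exact (mul_mem (subset_closure (by simp)) (mul_mem (subset_closure (by simp)) (mul_mem (subset_closure (by simp)) (subset_closure (by simp)))))
      · rw [conj_eq s1 c14]; exact (subset_closure (by simp))
      · rw [conj_eq s1 c15]; exact (subset_closure (by simp))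
      · rw [conj_eq s1 c16]; exact (subset_closure (by simp))
      · rw [conj_eq s1 c17]; exact (subset_closure (by simp))
      · rw [conj_eq s1 m18]; exact (mul_mem (subset_closure (by simp)) (mul_mem (subset_closure (by simp)) (subset_closure (by simp))))
      · rw [conj_eq s1 m19]; exact (mul_mem (subset_closure (by simp)) (subset_closure (by simp))))
    have b0 := Cfsg.Agent.FGS4.SchurSylow.card_closure_insert_le (s := ({A1, A2, A3, A4, A5, A6, A7, A8, A9} : Set Γ)) s0 (fun x hx => by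
      simp only [Set.mem_insert_iff, Set.mem_singleton_iff] at hx
      rcases hx with rfl | rfl | rfl | rfl | rfl | rfl | rfl | rfl | rfl
      · rw [conj_eq s0 m01]; exact (mul_mem (subset_closure (by simp)) (mul_mem (subset_closure (by simp)) (subset_closure (by simp))))
      · rw [conj_eq s0 m02]; exact (mul_mem (subset_closure (by simp)) (mul_mem (subset_closure (by simp)) (mul_mem (subset_closure (by simp)) (subset_closure (by simp)))))
      · rw [conj_eq s0 m03]; exact (mul_mem (subset_closure (by simp)) (subset_closure (by simp)))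
      · rw [conj_eq s0 c04]; exact (subset_closure (by simp))
      · rw [conj_eq s0 c05]; exact (subset_closure (by simp))
      · rw [conj_eq s0 c06]; exact (subset_closure (by simp))
      · rw [conj_eq s0 m07]; exact (mul_mem (subset_closure (by simp)) (subset_closure (by simp)))
      · rw [conj_eq s0 c08]; exact (subset_closure (by simp))
      · rw [conj_eq s0 m09]; exact (mul_mem (subset_closure (by simp)) (mul_mem (subset_closure (by simp)) (mul_mem (subset_closure (by simp)) (mul_mem (subset_closure (by simp)) (subset_closure (by simp)))))))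
    rw [hT]
    omega
  have himg : T.map σ = (S : Subgroup Q) := by
    rw [hS, hT, MonoidHom.map_closure]
    simp only [Set.image_insert_eq, Set.image_singleton, a0, a1, a2, a3, a4, a5, a6, a7, a8, a9]
  have hbot : ∀ x ∈ T, x ∈ σ.ker → x = 1 := by
    intro x hx hxk
    let f : T →* Q := σ.comp T.subtype
    have hr : f.range = T.map σ := by
      rw [MonoidHom.range_comp, range_subtype]
    have h1 := f.ker.card_mul_index
    rw [Subgroup.index_ker, hr, himg, hS, hcard] at h1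
    have hk : Nat.card f.ker = 1 := by
      have : 0 < Nat.card f.ker := Nat.card_pos
      by_contra hne
      have : 2 * 1024 ≤ Nat.card f.ker * 1024 := Nat.mul_le_mul_right _ (by omega)
      omega
    have hmem : (⟨x, hx⟩ : T) ∈ f.ker := hxk
    rw [Subgroup.card_eq_one.1 hk, mem_bot] at hmem
    exact congrArg Subtype.val hmem
  have hle : (S : Subgroup Q).comap σ ≤ T ⊔ σ.ker := by rw [← himg, Subgroup.comap_map_eq]
  have h1 := Cfsg.Agent.FGS4.SchurSylow.commutator_sup_center_le (K := T) hσ.2.1 (commutator_mono hle hle ht)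
  exact hbot t (Subgroup.commutator_le_self T h1) htk

end Cfsg.Agent.FGS4.M24Schur
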